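import Cfsg.Agent.SpSkew.Basis
import Cfsg.Agent.Forms.Unitary
import Cfsg.Agent.UGeom.Count
import Cfsg.Agent.SpGeom.Order

/-!
The unitary group inside the centraliser of the standard skew root.
-/

set_option autoImplicit false

namespace CfsgLib.SpSkew

open Matrix CfsgLib.Forms

variable {F : Type*} [Field F] [Fintype F] {d : ℕ}

local notation "𝕍" => (Fin d ⊕ Fin d → F)
local notation "𝕄" => Matrix (Fin d ⊕ Fin d) (Fin d ⊕ Fin d) F
local notation "𝔾" => GL (Fin d ⊕ Fin d) F
local notation "𝕗" => Cfsg.sympForm d F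

theorem card_GU_dvd (h2 : (2 : F) ≠ 0) {ν : F} (hν : ν ≠ 0) (hns : ¬ IsSquare ν) :
    ∃ (N : ℕ), N = (Fintype.card F) ^ (d * (d - 1) / 2) *
        ∏ i ∈ Finset.range d, (if Even i then (Fintype.card F) ^ (i + 1) + 1 else (Fintype.card F) ^ (i + 1) - 1) ∧
      ∃ H : Subgroup 𝔾, Nat.card H = N ∧ H ≤ Cfsg.spGL d F ∧ ∀ g ∈ H, (g : 𝕄) * stdJ d ν = stdJ d ν * (g : 𝕄) := by
  classical
  obtain ⟨p, _⟩ := CharP.exists F
  obtain ⟨n, hp, hn⟩ := FiniteField.card F p
  haveI : Fact p.Prime := ⟨hp⟩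
  let L := GaloisField p (2 * (n : ℕ))
  letI : Fintype L := Fintype.ofFinite L
  have hL : Fintype.card L = Fintype.card F ^ 2 := by
    rw [← Nat.card_eq_fintype_card, GaloisField.card p _ (by positivity), hn, ← pow_mul, mul_comm]
  obtain ⟨ι⟩ := Forms.Unitary.exists_algebra hL rfl
  letI : Algebra F L := ι.toAlgebra
  have hinjm := (algebraMap F L).injective
  obtain ⟨σ, hσdef⟩ : ∃ σ : L →ₐ[F] L, σ = Forms.Unitary.frob F L := ⟨_, rfl⟩
  have hσσ : ∀ x, σ (σ x) = x := by rw [hσdef]; exact Forms.Unitary.frob_frob hL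
  have hchar : ringChar L ≠ 2 := fun h => h2 (hinjm (by
    rw [map_ofNat, map_zero]
    have := ringChar.Nat.cast_ringChar (R := L)
    rw [h] at this
    exact_mod_cast this))
  have hFodd : Fintype.card F % 2 = 1 := by
    refine FiniteField.odd_card_of_char_ne_two fun h => h2 ?_
    have := ringChar.Nat.cast_ringChar (R := F)
    rw [h] at this
    exact_mod_cast this
  obtain ⟨s, hs⟩ : IsSquare (algebraMap F L ν) := by
    rw [FiniteField.isSquare_iff hchar (by simpa using hν), ← map_pow]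
    obtain ⟨k, hk⟩ : ∃ k, Fintype.card F = 2 * k + 1 := ⟨Fintype.card F / 2, by omega⟩
    have h1 : Fintype.card L / 2 = (Fintype.card F - 1) * (k + 1) := by
      rw [hL, hk, Nat.add_sub_cancel, show (2 * k + 1) ^ 2 = 2 * (2 * k * (k + 1)) + 1 by ring]
      omega
    rw [h1, pow_mul, FiniteField.pow_card_sub_one_eq_one ν hν, one_pow, map_one]
  have hs0 : s ≠ 0 := fun h => hν (hinjm (by rw [hs, h, mul_zero, map_zero]))
  have hσs : σ s = -s := by
    have h1 : σ s * σ s = s * s := by rw [← map_mul σ, ← hs, AlgHom.commutes]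
    rcases mul_self_eq_mul_self_iff.1 h1 with h | h
    · obtain ⟨a, ha⟩ := Forms.Unitary.exists_of_fixed hL (x := s) (by rw [← hσdef]; exact h)
      exact absurd ⟨a, hinjm (by rw [hs, map_mul, ha])⟩ hns
    · exact h
  have h2L : (2 : L) ≠ 0 := fun h => h2 (hinjm (by rw [map_ofNat, map_zero]; exact h))
  have hfix : ∀ y : L, σ y = y → ∃ a : F, algebraMap F L a = y := fun y hy =>
    Forms.Unitary.exists_of_fixed hL (by rw [← hσdef]; exact hy)
  have hdec : ∀ y : L, ∃ a b : F, y = algebraMap F L a + algebraMap F L b * s := by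
    intro y
    obtain ⟨a, ha⟩ := hfix ((y + σ y) / 2) (by rw [map_div₀, map_add, hσσ, map_ofNat, add_comm])
    obtain ⟨b, hb⟩ := hfix ((y - σ y) / (2 * s)) (by
      rw [map_div₀, map_sub, hσσ, map_mul, map_ofNat, hσs, mul_neg, div_neg, ← neg_div, neg_sub])
    exact ⟨a, b, by rw [ha, hb, div_mul_eq_mul_div, mul_div_mul_right _ _ hs0, ← add_div, eq_div_iff h2L]; ring⟩
  have huniq : ∀ a b : F, algebraMap F L a + algebraMap F L b * s = 0 → a = 0 ∧ b = 0 := by
    intro a b h
    have h' : algebraMap F L a - algebraMap F L b * s = 0 := by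
      have := congrArg σ h
      rw [map_add, map_mul, AlgHom.commutes, AlgHom.commutes, hσs, map_zero] at this
      linear_combination this
    have ha : (2 : L) * algebraMap F L a = 0 := by linear_combination h + h'
    have hb : (2 : L) * s * algebraMap F L b = 0 := by linear_combination h - h'
    simp only [mul_eq_zero, h2L, hs0, false_or, map_eq_zero] at ha hb
    exact ⟨ha, hb⟩
  let Φ₀ : 𝕍 →ₗ[F] (Fin d → L) :=
    { toFun := fun v i => algebraMap F L (v (Sum.inl i)) + algebraMap F L (v (Sum.inr i)) * s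
      map_add' := fun a b => funext fun i => by simp only [Pi.add_apply, map_add]; ring
      map_smul' := fun c a => funext fun i => by
        simp only [Pi.smul_apply, smul_eq_mul, map_mul, RingHom.id_apply, Algebra.smul_def]; ring }
  have hΦ : Function.Bijective Φ₀ := by
    refine ⟨(injective_iff_map_eq_zero Φ₀).2 fun v hv => ?_, fun y => ?_⟩
    · funext k
      rcases k with k | k
      · exact (huniq _ _ (congrFun hv k)).1
      · exact (huniq _ _ (congrFun hv k)).2
    · choose a b hab using fun i => hdec (y i)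
      exact ⟨Sum.elim a b, funext fun i => (hab i).symm⟩
  let Φ := LinearEquiv.ofBijective Φ₀ hΦ
  have hΦa : ∀ v i, Φ v i = algebraMap F L (v (Sum.inl i)) + algebraMap F L (v (Sum.inr i)) * s := fun v i => rfl
  have hform : ∀ u v, algebraMap F L (𝕗 u v) * (2 * s) = ∑ i, (Φ u i * σ (Φ v i) - Φ v i * σ (Φ u i)) := by
    intro u v
    rw [SpGeom.form_def, map_sum, Finset.sum_mul]
    refine Finset.sum_congr rfl fun i _ => ?_
    simp only [hΦa, map_add, map_sub, map_mul, AlgHom.commutes, hσs]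
    ring
  have hJ : ∀ v, Φ (stdJ d ν *ᵥ v) = s • Φ v := by
    intro v
    funext i
    rw [Pi.smul_apply, hΦa, hΦa, smul_eq_mul]
    simp only [stdJ, Matrix.fromBlocks_mulVec, Sum.elim_inl, Sum.elim_inr, Matrix.zero_mulVec,
      Matrix.smul_mulVec, Matrix.one_mulVec, zero_add, add_zero, Pi.smul_apply, Function.comp_apply, smul_eq_mul,
      map_mul, hs]
    ring
  let ψ : ↥(Cfsg.GU d L (Fintype.card F)) → (𝕍 →ₗ[F] 𝕍) := fun x =>
    (Φ.symm : (Fin d → L) →ₗ[F] 𝕍) ∘ₗ
      ((Matrix.mulVecLin ((x : GL (Fin d) L) : Matrix (Fin d) (Fin d) L)).restrictScalars F) ∘ₗ (Φ : 𝕍 →ₗ[F] _)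
  have hψa : ∀ x v, ψ x v = Φ.symm (((x : GL (Fin d) L) : Matrix (Fin d) (Fin d) L) *ᵥ Φ v) := fun x v => rfl
  let ψm : ↥(Cfsg.GU d L (Fintype.card F)) →* 𝕄 :=
    { toFun := fun x => LinearMap.toMatrix' (ψ x)
      map_one' := by
        rw [show ψ 1 = LinearMap.id from LinearMap.ext fun v => by
          rw [hψa, Subgroup.coe_one, Units.val_one, Matrix.one_mulVec, LinearEquiv.symm_apply_apply]; rfl,
          LinearMap.toMatrix'_id]
      map_mul' := fun x y => by
        rw [show ψ (x * y) = ψ x ∘ₗ ψ y from LinearMap.ext fun v => by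
          show Φ.symm _ = Φ.symm (((x : GL (Fin d) L) : Matrix (Fin d) (Fin d) L) *ᵥ
            Φ (Φ.symm (((y : GL (Fin d) L) : Matrix (Fin d) (Fin d) L) *ᵥ Φ v)))
          rw [LinearEquiv.apply_symm_apply, Matrix.mulVec_mulVec]
          rfl, LinearMap.toMatrix'_comp] }
  have hψm : ∀ x v, ψm x *ᵥ v = Φ.symm (((x : GL (Fin d) L) : Matrix (Fin d) (Fin d) L) *ᵥ Φ v) := fun x v =>
    (LinearMap.toMatrix'_mulVec (ψ x) v).trans (hψa x v)
  have hinv : Function.Injective ψm.toHomUnits := by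
    intro x y h
    refine Subtype.ext (Units.ext (Matrix.ext_iff_mulVec.2 fun v => ?_))
    have h1 : ψm x = ψm y := congrArg Units.val h
    have := hψm x (Φ.symm v)
    rw [h1, hψm, LinearEquiv.apply_symm_apply] at this
    exact (Φ.symm.injective this).symm
  obtain ⟨C⟩ := CfsgLib.UGeom.nonempty_conj hL
  refine ⟨_, rfl, ψm.toHomUnits.range, ?_, ?_, ?_⟩
  · rw [← CfsgLib.UGeom.card_GU C d]
    exact (Nat.card_congr (MonoidHom.ofInjective hinv).toEquiv).symm
  · rintro _ ⟨x, rfl⟩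
    refine GeoSp.mem_spGL.2 fun u v => ?_
    show 𝕗 (ψm x *ᵥ u) (ψm x *ᵥ v) = _
    refine hinjm (mul_right_cancel₀ (mul_ne_zero h2L hs0) ?_)
    rw [hform, hform, hψm, hψm, LinearEquiv.apply_symm_apply, LinearEquiv.apply_symm_apply]
    have key : ∀ a b : Fin d → L, ∑ i, ((((x : GL (Fin d) L) : Matrix (Fin d) (Fin d) L) *ᵥ a) i *
        σ ((((x : GL (Fin d) L) : Matrix (Fin d) (Fin d) L) *ᵥ b) i)) = ∑ i, a i * σ (b i) := fun a b => by
      simp only [hσdef, Forms.Unitary.frob_apply]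
      exact x.2 a b
    rw [Finset.sum_sub_distrib, Finset.sum_sub_distrib, key, key]
  · rintro _ ⟨x, rfl⟩
    show ψm x * stdJ d ν = stdJ d ν * ψm x
    refine Matrix.ext_iff_mulVec.2 fun v => Φ.injective ?_
    rw [← Matrix.mulVec_mulVec, ← Matrix.mulVec_mulVec, hψm, LinearEquiv.apply_symm_apply, hJ, hJ, hψm,
      LinearEquiv.apply_symm_apply, Matrix.mulVec_smul]

end CfsgLib.SpSkew
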