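import Cfsg.Agent.SpSkew.Elements
import Cfsg.Agent.SpSkew.Embed
import Cfsg.Agent.SpGeom.Order
import Cfsg.Prelude.Def_GeometricClasses
import Mathlib

/-!
Elements of prime order and the unitary type subgroups of the symplectic group.
-/

set_option autoImplicit false

namespace CfsgLib.SpSkew

open Matrix

variable {F : Type*} [Field F] {d : ℕ}

local notation "𝕍" => (Fin d ⊕ Fin d → F)
local notation "𝕄" => Matrix (Fin d ⊕ Fin d) (Fin d ⊕ Fin d) F
local notation "𝔾" => GL (Fin d ⊕ Fin d) F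
local notation "𝕗" => Cfsg.sympForm d F

theorem eq_of_span_one {j : 𝕄} {K : Subalgebra F 𝕄} (hd : 1 ≤ d) (hrank : Module.finrank F K = 2) (hj : j ∈ K)
    (hns : ∀ z : F, j ≠ z • 1) {k : 𝕄} (hk : k ∈ K) : ∃ a b : F, k = a • 1 + b • j := by
  haveI : Nonempty (Fin d) := ⟨⟨0, hd⟩⟩
  have hli : LinearIndependent F ![(1 : K), ⟨j, hj⟩] := by
    refine LinearIndependent.pair_iff.2 fun a b hab => ?_
    have h1 : a • (1 : 𝕄) + b • j = 0 := congrArg Subtype.val hab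
    by_cases hb : b = 0
    · subst hb
      rw [zero_smul, add_zero] at h1
      exact ⟨(smul_eq_zero.1 h1).resolve_right one_ne_zero, rfl⟩
    · refine absurd ?_ (hns (-(b⁻¹ * a)))
      have := congrArg (fun m : 𝕄 => b⁻¹ • m) h1
      simp only [smul_add, smul_smul, inv_mul_cancel₀ hb, one_smul, smul_zero] at this
      rw [neg_smul, eq_neg_iff_add_eq_zero, add_comm, this]
  let bas := basisOfLinearIndependentOfCardEqFinrank hli (by rw [hrank]; rfl)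
  have h := bas.sum_repr ⟨k, hk⟩
  rw [Fin.sum_univ_two] at h
  refine ⟨bas.repr ⟨k, hk⟩ 0, bas.repr ⟨k, hk⟩ 1, ?_⟩
  have h' := congrArg Subtype.val h
  simp only [bas, coe_basisOfLinearIndependentOfCardEqFinrank, Matrix.cons_val_zero, Matrix.cons_val_one] at h'
  exact h'.symm

theorem exists_skew_gen (hd : 1 ≤ d) (h2 : (2 : F) ≠ 0) (K : Subalgebra F 𝕄) (hK : Cfsg.Geo.IsFieldSubalgebra 2 K)
    (hKf : Cfsg.Geo.IsAdjointClosedFor 𝕗 K) (hKns : ¬ Cfsg.Geo.IsSelfAdjointFor 𝕗 K) :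
    ∃ (j : 𝕄) (ν : F), j ∈ K ∧ IsSkew j ∧ ¬ IsSquare ν ∧ j * j = ν • 1 ∧ (∀ z : F, j ≠ z • 1) := by
  classical
  haveI : Nonempty (Fin d) := ⟨⟨0, hd⟩⟩
  obtain ⟨a, ha, hnsa⟩ : ∃ a ∈ K, ¬ ∀ u v, 𝕗 (a *ᵥ u) v = 𝕗 u (a *ᵥ v) := by
    by_contra hcon
    push Not at hcon
    exact hKns fun k hk => hcon k hk
  obtain ⟨a', ha', hadj⟩ := hKf a ha
  have hadj' : ∀ u v, 𝕗 (a' *ᵥ u) v = 𝕗 u (a *ᵥ v) := fun u v => by
    rw [SpGeom.form_skew v (a' *ᵥ u), ← hadj, ← SpGeom.form_skew (a *ᵥ v) u]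
  have hskew : IsSkew (a - a') := fun u v => by
    rw [Matrix.sub_mulVec, Matrix.sub_mulVec, SpGeom.form_sub_left, SpGeom.form_sub_right, hadj, hadj']
    ring
  have hns : ∀ z : F, a - a' ≠ z • 1 := by
    intro z hz
    rcases eq_or_ne z 0 with rfl | hz0
    · rw [zero_smul, sub_eq_zero] at hz
      exact hnsa fun u v => by rw [hadj, ← hz]
    · let i0 : Fin d := ⟨0, hd⟩
      obtain ⟨y, hy⟩ := SpGeom.exists_form_ne_zero (F := F) (v := (Pi.single (Sum.inl i0) 1 : 𝕍)) (by simp)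
      have h1 := hskew (Pi.single (Sum.inl i0) 1) y
      rw [hz, Matrix.smul_mulVec, Matrix.one_mulVec, Matrix.smul_mulVec, Matrix.one_mulVec,
        SpGeom.form_smul_left, SpGeom.form_smul_right] at h1
      have h3 : (2 : F) * (z * 𝕗 (Pi.single (Sum.inl i0) 1) y) = 0 := by linear_combination h1
      simp [h2, hz0, hy] at h3
  have hjK : a - a' ∈ K := K.sub_mem ha ha'
  generalize a - a' = j at hskew hns hjK
  obtain ⟨α, β, hsq⟩ := eq_of_span_one hd hK.finrank_eq hjK hns (K.mul_mem hjK hjK)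
  have hβ : β = 0 := by
    by_contra hβ
    have hself : ∀ u v, 𝕗 ((j * j) *ᵥ u) v = 𝕗 u ((j * j) *ᵥ v) := fun u v => by
      rw [← Matrix.mulVec_mulVec, ← Matrix.mulVec_mulVec, hskew, hskew, neg_neg]
    have h0 : ∀ u v, 𝕗 (j *ᵥ u) v = 0 := fun u v => by
      have h1 := hself u v
      simp only [hsq, Matrix.add_mulVec, Matrix.smul_mulVec, Matrix.one_mulVec, SpGeom.form_add_left,
        SpGeom.form_add_right, SpGeom.form_smul_left, SpGeom.form_smul_right] at h1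
      have h4 := hskew u v
      have h3 : (2 : F) * (β * 𝕗 (j *ᵥ u) v) = 0 := by linear_combination h1 + β * h4
      simpa [h2, hβ] using h3
    refine hns 0 ?_
    rw [zero_smul]
    refine Matrix.ext_iff_mulVec.2 fun u => ?_
    rw [Matrix.zero_mulVec]
    by_contra hu
    obtain ⟨y, hy⟩ := SpGeom.exists_form_ne_zero hu
    exact hy (h0 u y)
  rw [hβ, zero_smul, add_zero] at hsq
  refine ⟨j, α, hjK, hskew, ?_, hsq, hns⟩
  rintro ⟨s, hs⟩
  have hmem : j - s • 1 ∈ K := K.sub_mem hjK (K.smul_mem K.one_mem s)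
  obtain ⟨y, -, hy⟩ := hK.inv _ hmem fun h => hns s (sub_eq_zero.1 h)
  have hyl : y * (j - s • 1) = 1 := mul_eq_one_comm.1 hy
  have h0 : (j - s • 1) * (j + s • 1) = 0 := by
    rw [sub_mul, mul_add, mul_add, hsq, hs]
    simp only [mul_smul_comm, smul_mul_assoc, mul_one, one_mul, smul_smul]
    abel
  refine hns (-s) ?_
  have h1 : j + s • 1 = 0 := by
    calc j + s • 1 = (y * (j - s • 1)) * (j + s • 1) := by rw [hyl, one_mul]
      _ = 0 := by rw [mul_assoc, h0, mul_zero]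
  rw [neg_smul, eq_neg_iff_add_eq_zero, h1]

/-- Elements sending the generator to its sign multiple normalise. -/
theorem mem_normalizer (hd : 1 ≤ d) {K : Subalgebra F 𝕄} (hrank : Module.finrank F K = 2) {j : 𝕄} (hj : j ∈ K)
    (hns : ∀ z : F, j ≠ z • 1) (g : 𝔾) (ε : F) (hε : ε * ε = 1) (h : (g : 𝕄) * j = ε • (j * (g : 𝕄))) :
    g ∈ Cfsg.Geo.subalgebraNormalizer K := by
  have hc : (g : 𝕄) * j * ((g⁻¹ : 𝔾) : 𝕄) = ε • j := by
    rw [h, smul_mul_assoc, mul_assoc, ← Units.val_mul, mul_inv_cancel, Units.val_one, mul_one]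
  intro k
  constructor
  · intro hk
    obtain ⟨a, b, rfl⟩ := eq_of_span_one hd hrank hj hns hk
    rw [mul_add, add_mul, mul_smul_comm, smul_mul_assoc, mul_smul_comm, smul_mul_assoc, mul_one,
      ← Units.val_mul, mul_inv_cancel, Units.val_one, hc]
    exact K.add_mem (K.smul_mem K.one_mem a) (K.smul_mem (K.smul_mem hj ε) b)
  · intro hk
    obtain ⟨a, b, hab⟩ := eq_of_span_one hd hrank hj hns hk
    have : k = a • 1 + (b * ε) • j := by
      have e1 : k = ((g⁻¹ : 𝔾) : 𝕄) * ((g : 𝕄) * k * ((g⁻¹ : 𝔾) : 𝕄)) * (g : 𝕄) := by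
        rw [mul_assoc (g : 𝕄), ← mul_assoc, ← Units.val_mul, inv_mul_cancel, Units.val_one, one_mul, mul_assoc,
          ← Units.val_mul, inv_mul_cancel, Units.val_one, mul_one]
      have e2 : ((g⁻¹ : 𝔾) : 𝕄) * j * (g : 𝕄) = ε • j := by
        have e3 : j * (g : 𝕄) = ε • ((g : 𝕄) * j) := by rw [h, smul_smul, hε, one_smul]
        rw [mul_assoc, e3, mul_smul_comm, ← mul_assoc, ← Units.val_mul, inv_mul_cancel, Units.val_one, one_mul]
      rw [e1, hab, mul_add, add_mul, mul_smul_comm, smul_mul_assoc, mul_smul_comm, smul_mul_assoc, mul_one,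
        ← Units.val_mul, inv_mul_cancel, Units.val_one, e2, smul_smul]
    rw [this]
    exact K.add_mem (K.smul_mem K.one_mem a) (K.smul_mem hj _)

variable [Fintype F]

/-- The number theory. -/
theorem order_cases {r q : ℕ} [Fact r.Prime] (hr2 : r ≠ 2) (hq : 1 ≤ q) (hrq : ¬ r ∣ q) {N : ℕ}
    (h : r ∣ q ^ N * ∏ i ∈ Finset.range d, (if Even i then q ^ (i + 1) - 1 else q ^ (i + 1) + 1)) :
    (∃ e, Odd e ∧ e ≤ d ∧ e = orderOf (q : ZMod r)) ∨ (∃ h, Even h ∧ h ≤ d ∧ 2 * h = orderOf (q : ZMod r)) := by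
  have hr : r.Prime := Fact.out
  rcases hr.dvd_mul.1 h with h | h
  · exact absurd (hr.dvd_of_dvd_pow h) hrq
  obtain ⟨i, hi, hdvd⟩ := (Prime.dvd_finset_prod_iff hr.prime _).1 h
  rw [Finset.mem_range] at hi
  by_cases hev : Even i
  · left
    rw [if_pos hev] at hdvd
    have he : orderOf (q : ZMod r) ∣ i + 1 := by
      refine orderOf_dvd_of_pow_eq_one ?_
      have h0 := (ZMod.natCast_eq_zero_iff _ r).2 hdvd
      rw [Nat.cast_sub (Nat.one_le_pow _ _ hq)] at h0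
      push_cast at h0
      linear_combination h0
    exact ⟨_, Odd.of_dvd_nat hev.add_one he, (Nat.le_of_dvd (by omega) he).trans (by omega), rfl⟩
  · right
    rw [if_neg hev] at hdvd
    have hm1 : (q : ZMod r) ^ (i + 1) = -1 := by
      have h0 := (ZMod.natCast_eq_zero_iff _ r).2 hdvd
      push_cast at h0
      linear_combination h0
    have h2i : orderOf (q : ZMod r) ∣ 2 * (i + 1) :=
      orderOf_dvd_of_pow_eq_one (by rw [mul_comm, pow_mul, hm1, neg_one_sq])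
    have hni : ¬ orderOf (q : ZMod r) ∣ i + 1 := fun hd' => by
      have hpw := orderOf_dvd_iff_pow_eq_one.1 hd'
      rw [hm1] at hpw
      haveI : Fact (2 < r) := ⟨lt_of_le_of_ne hr.two_le (Ne.symm hr2)⟩
      exact ZMod.neg_one_ne_one hpw
    have hev1 : Even (i + 1) := by simpa [Nat.even_add_one] using hev
    rcases Nat.even_or_odd (orderOf (q : ZMod r)) with ⟨h, hh⟩ | hodd
    · have hh' : h ∣ i + 1 := by
        rw [hh, ← two_mul] at h2i
        exact Nat.dvd_of_mul_dvd_mul_left two_pos h2i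
      refine ⟨h, ?_, (Nat.le_of_dvd (by omega) hh').trans (by omega), by omega⟩
      by_contra hodd
      refine hni ?_
      rw [hh, ← two_mul]
      exact (Nat.Coprime.mul_dvd_of_dvd_of_dvd (Nat.coprime_two_left.2 (Nat.not_even_iff_odd.1 hodd))
        (even_iff_two_dvd.1 hev1) hh')
    · exact absurd ((Nat.Coprime.dvd_mul_left (Nat.coprime_two_right.2 hodd)).1 h2i) hni

theorem exists_root {p : ℕ} [Fact p.Prime] [CharP F p] {r e : ℕ} [Fact r.Prime] (he : 1 ≤ e)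
    (hq : ((Fintype.card F : ℕ) : ZMod r) ^ e = 1) :
    ∃ (L : Type) (_ : Field L) (_ : Algebra F L), Module.finrank F L = e ∧ ∃ ζ : L, orderOf ζ = r := by
  haveI : NeZero e := ⟨by omega⟩
  refine ⟨FiniteField.Extension F p e, inferInstance, inferInstance, FiniteField.finrank_extension F p e, ?_⟩
  have hdvd : r ∣ Nat.card (FiniteField.Extension F p e)ˣ := by
    rw [Nat.card_units, FiniteField.natCard_extension, Nat.card_eq_fintype_card,
      ← ZMod.natCast_eq_zero_iff, Nat.cast_sub (Nat.one_le_pow _ _ Fintype.card_pos), Nat.cast_pow, hq,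
      Nat.cast_one, sub_self]
  obtain ⟨u, hu⟩ := exists_prime_orderOf_dvd_card' r hdvd
  exact ⟨(u : FiniteField.Extension F p e), by rw [orderOf_units, hu]⟩

theorem exists_avoids {p : ℕ} [Fact p.Prime] [CharP F p] (h2 : (2 : F) ≠ 0) (hd : 1 ≤ d) {r : ℕ} [Fact r.Prime]
    (hr2 : r ≠ 2) {N : ℕ}
    (h : r ∣ Fintype.card F ^ N * ∏ i ∈ Finset.range d,
      (if Even i then Fintype.card F ^ (i + 1) - 1 else Fintype.card F ^ (i + 1) + 1)) :
    ∃ x : GL (Fin d ⊕ Fin d) F, Avoids r x := by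
  classical
  have hr : r.Prime := Fact.out
  obtain ⟨n, hp, hn⟩ := FiniteField.card F p
  rcases eq_or_ne r p with rfl | hrp
  · exact transvection_avoids hd
  have hrq : ¬ r ∣ Fintype.card F := fun hdvd => hrp ((Nat.prime_dvd_prime_iff_eq hr hp).1
    (hr.dvd_of_dvd_pow (hn ▸ hdvd)))
  have hne : (Fintype.card F : ZMod r) ≠ 0 := fun h0 => hrq ((ZMod.natCast_eq_zero_iff _ _).1 h0)
  have hpos : 1 ≤ orderOf (Fintype.card F : ZMod r) :=
    orderOf_pos_iff.2 (isOfFinOrder_iff_pow_eq_one.2 ⟨r - 1, by have := hr.two_le; omega, ZMod.pow_card_sub_one_eq_one hne⟩)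
  obtain ⟨L, _, _, hfe, ζ, hζ⟩ := exists_root (F := F) (p := p) (r := r) hpos (pow_orderOf_eq_one _)
  haveI : FiniteDimensional F L := FiniteDimensional.of_finrank_pos (by rw [hfe]; exact hpos)
  haveI : Finite L := Module.finite_of_finite F
  letI : Fintype L := Fintype.ofFinite L
  have hζr : ζ ^ r = 1 := hζ ▸ pow_orderOf_eq_one ζ
  have hζ1 : ζ ≠ 1 := fun h1 => hr.one_lt.ne' (by rw [← hζ, h1, orderOf_one])
  rcases order_cases hr2 Fintype.card_pos hrq h with ⟨e, hodd, hed, he⟩ | ⟨m, hev, hmd, hm⟩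
  · exact odd_avoids hr hr2 (hfe.trans he.symm) hodd hed hζr hζ1
  · let τ : L ≃ₐ[F] L := FiniteField.frobeniusAlgEquivOfAlgebraic F L ^ m
    have hτ : ∀ z, τ z = z ^ (Fintype.card F ^ m) := fun z => by
      show (FiniteField.frobeniusAlgEquivOfAlgebraic F L ^ m) z = _
      generalize m = k
      induction k with
      | zero => simp
      | succ k ih =>
        rw [pow_succ', AlgEquiv.mul_apply, ih, FiniteField.frobeniusAlgEquivOfAlgebraic, pow_succ, pow_mul]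
        rfl
    have hqm : (Fintype.card F : ZMod r) ^ m = -1 := by
      have h1 : (Fintype.card F : ZMod r) ^ m * (Fintype.card F : ZMod r) ^ m = 1 := by
        rw [← pow_add, ← two_mul, hm, pow_orderOf_eq_one]
      rcases mul_self_eq_one_iff.1 h1 with h3 | h3
      · have h4 := Nat.le_of_dvd (Nat.pos_of_ne_zero fun h0 => by omega) (orderOf_dvd_of_pow_eq_one h3)
        omega
      · exact h3
    have hτζ : τ ζ = ζ⁻¹ := by
      rw [hτ]
      refine eq_inv_of_mul_eq_one_left ?_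
      rw [← pow_succ, ← orderOf_dvd_iff_pow_eq_one, hζ, ← ZMod.natCast_eq_zero_iff, Nat.cast_add, Nat.cast_pow, hqm,
        Nat.cast_one, neg_add_cancel]
    have hdeg : ∀ k : ℕ, ζ ^ (Fintype.card F ^ k) = ζ → orderOf (Fintype.card F : ZMod r) ∣ k := fun k hk => by
      refine orderOf_dvd_of_pow_eq_one ?_
      have hζ0 : ζ ≠ 0 := fun h0 => by rw [h0, zero_pow hr.ne_zero] at hζr; exact zero_ne_one hζr
      have h1 : ζ ^ (Fintype.card F ^ k - 1) = 1 := by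
        refine mul_right_cancel₀ hζ0 ?_
        rw [← pow_succ, Nat.sub_add_cancel (Nat.one_le_pow _ _ Fintype.card_pos), hk, one_mul]
      have h3 := orderOf_dvd_of_pow_eq_one h1
      rw [hζ, ← ZMod.natCast_eq_zero_iff, Nat.cast_sub (Nat.one_le_pow _ _ Fintype.card_pos), Nat.cast_pow,
        Nat.cast_one, sub_eq_zero] at h3
      exact h3
    have hgen : ∀ z : L, ∃ P : Polynomial F, Polynomial.aeval ζ P = z := by
      intro z
      have htop : IntermediateField.adjoin F {ζ} = (⊤ : IntermediateField F L) := by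
        refine IntermediateField.eq_of_le_of_finrank_le le_top ?_
        rw [IntermediateField.finrank_top', hfe]
        refine Nat.le_of_dvd Module.finrank_pos (hdeg _ ?_)
        haveI : Finite ↥(IntermediateField.adjoin F {ζ}) := Module.finite_of_finite F
        letI : Fintype ↥(IntermediateField.adjoin F {ζ}) := Fintype.ofFinite _
        have h1 := FiniteField.pow_card (⟨ζ, IntermediateField.mem_adjoin_simple_self F ζ⟩ : IntermediateField.adjoin F {ζ})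
        rw [Module.card_eq_pow_finrank (K := F)] at h1
        exact congrArg Subtype.val h1
      have hz : z ∈ (IntermediateField.adjoin F {ζ}).toSubalgebra := by rw [htop]; trivial
      rw [IntermediateField.adjoin_simple_toSubalgebra_of_isAlgebraic (Algebra.IsAlgebraic.isAlgebraic ζ),
        Algebra.adjoin_singleton_eq_range_aeval] at hz
      exact hz
    have hnz : ∀ c : F, algebraMap F L c ≠ ζ := fun c hc => by
      have h1 := hdeg 1 (by rw [pow_one, ← hc, ← map_pow, FiniteField.pow_card])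
      have := Nat.le_of_dvd one_pos h1
      omega
    exact half_avoids h2 (hfe.trans hm.symm) hev hmd τ hτ hζr hζ1 hτζ hgen hnz

/-- A normalising element of odd order modulo scalars commutes with the generator. -/
theorem comm_of_normalizer (hd : 1 ≤ d) (h2 : (2 : F) ≠ 0) {K : Subalgebra F 𝕄} (hrank : Module.finrank F K = 2)
    {j : 𝕄} (hj : j ∈ K) (hns : ∀ z : F, j ≠ z • 1) {ν : F} (hν : ¬ IsSquare ν) (hsq : j * j = ν • 1) {y : 𝔾}
    (hy : y ∈ Cfsg.Geo.subalgebraNormalizer K) {r : ℕ} (hr : Odd r) (hyr : (y : 𝕄) ^ r = 1) :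
    (y : 𝕄) * j = j * (y : 𝕄) := by
  haveI : Nonempty (Fin d) := ⟨⟨0, hd⟩⟩
  obtain ⟨a, b, hab⟩ := eq_of_span_one hd hrank hj hns ((hy j).1 hj)
  have hyinv : ((y⁻¹ : 𝔾) : 𝕄) * (y : 𝕄) = 1 := by rw [← Units.val_mul, inv_mul_cancel, Units.val_one]
  have hs : (a • 1 + b • j) * (a • 1 + b • j) = ν • (1 : 𝕄) := by
    rw [← hab, show (y : 𝕄) * j * ((y⁻¹ : 𝔾) : 𝕄) * ((y : 𝕄) * j * ((y⁻¹ : 𝔾) : 𝕄)) =
      (y : 𝕄) * j * (((y⁻¹ : 𝔾) : 𝕄) * (y : 𝕄)) * (j * ((y⁻¹ : 𝔾) : 𝕄)) by simp only [mul_assoc],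
      hyinv, mul_one, mul_assoc (y : 𝕄), ← mul_assoc j, hsq, smul_mul_assoc, one_mul, mul_smul_comm,
      ← Units.val_mul, mul_inv_cancel, Units.val_one]
  have hexp : (a * a + b * b * ν - ν) • (1 : 𝕄) + (2 * a * b) • j = 0 := by
    have e : (a • 1 + b • j) * (a • 1 + b • j) = (a * a) • (1 : 𝕄) + (2 * a * b) • j + (b * b) • (j * j) := by
      simp only [add_mul, mul_add, smul_mul_assoc, mul_smul_comm, one_mul, mul_one, smul_smul]
      module
    rw [e, hsq, smul_smul] at hs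
    rw [sub_smul, add_smul, ← sub_eq_zero.2 hs]
    abel
  have hab2 : 2 * a * b = 0 := by
    by_contra hne
    refine hns (-((2 * a * b)⁻¹ * (a * a + b * b * ν - ν))) ?_
    have h3 := congrArg (fun m : 𝕄 => (2 * a * b)⁻¹ • m) hexp
    simp only [smul_add, smul_smul, inv_mul_cancel₀ hne, one_smul, smul_zero] at h3
    rw [neg_smul, eq_neg_iff_add_eq_zero, add_comm, h3]
  have hb : b ≠ 0 := by
    intro hb
    rw [hb, zero_smul, add_zero] at hab
    refine hns a ?_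
    calc j = ((y⁻¹ : 𝔾) : 𝕄) * ((y : 𝕄) * j * ((y⁻¹ : 𝔾) : 𝕄)) * (y : 𝕄) := by
          rw [← mul_assoc, ← mul_assoc, hyinv, one_mul, mul_assoc, hyinv, mul_one]
      _ = a • 1 := by rw [hab, mul_smul_comm, mul_one, smul_mul_assoc, hyinv]
  have ha : a = 0 := by simpa [h2, hb] using hab2
  rw [ha, zero_smul, zero_add] at hab
  have hb2 : b * b = 1 := by
    rw [hab2, zero_smul, add_zero, smul_eq_zero] at hexp
    have h3 := hexp.resolve_right one_ne_zero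
    have hν0 : ν ≠ 0 := fun h0 => hν ⟨0, by rw [h0, mul_zero]⟩
    rw [ha, mul_zero, zero_add, sub_eq_zero] at h3
    exact mul_right_cancel₀ hν0 (h3.trans (one_mul ν).symm)
  have hyj : (y : 𝕄) * j = b • (j * (y : 𝕄)) := by
    rw [← smul_mul_assoc, ← hab, mul_assoc, hyinv, mul_one]
  have hpow : ∀ k : ℕ, (y : 𝕄) ^ k * j = b ^ k • (j * (y : 𝕄) ^ k) := by
    intro k
    induction k with
    | zero => simp
    | succ k ih =>
      rw [pow_succ (y : 𝕄), mul_assoc, hyj, mul_smul_comm, ← mul_assoc, ih, smul_mul_assoc, smul_smul,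
        mul_assoc j, mul_comm b, ← pow_succ]
  have h1 := hpow r
  rw [hyr, one_mul, mul_one] at h1
  have hbr : b ^ r = 1 := by
    by_contra hne
    refine hns 0 ?_
    have h3 : (b ^ r - 1) • j = 0 := by rw [sub_smul, one_smul, ← h1, sub_self]
    rw [zero_smul]
    exact (smul_eq_zero.1 h3).resolve_left (sub_ne_zero.2 hne)
  obtain ⟨k, rfl⟩ := hr
  rw [pow_succ, pow_mul, sq, hb2, one_pow, one_mul] at hbr
  rw [hyj, hbr, one_smul]

theorem index_cancel {q : ℕ} (hq : 1 ≤ q) (d : ℕ) :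
    q ^ (d ^ 2) * ∏ i ∈ Finset.range d, (q ^ (2 * (i + 1)) - 1) =
      (q ^ (d * (d - 1) / 2) * ∏ i ∈ Finset.range d, (if Even i then q ^ (i + 1) + 1 else q ^ (i + 1) - 1)) *
        (q ^ (d ^ 2 - d * (d - 1) / 2) *
          ∏ i ∈ Finset.range d, (if Even i then q ^ (i + 1) - 1 else q ^ (i + 1) + 1)) := by
  have hle : d * (d - 1) / 2 ≤ d ^ 2 := (Nat.div_le_self _ _).trans (by rw [sq]; exact Nat.mul_le_mul_left d (Nat.sub_le d 1))
  rw [mul_mul_mul_comm, ← pow_add, Nat.add_sub_cancel' hle, ← Finset.prod_mul_distrib]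
  congr 1
  refine Finset.prod_congr rfl fun i _ => ?_
  split_ifs <;> rw [mul_comm 2, pow_mul]
  · simpa using (Nat.sq_sub_sq (q ^ (i + 1)) 1)
  · simpa [mul_comm] using (Nat.sq_sub_sq (q ^ (i + 1)) 1)

/-- Every element of order two modulo scalars normalises a conjugate. -/
theorem two_fixes (hd : 1 ≤ d) (h2 : (2 : F) ≠ 0) {K : Subalgebra F 𝕄} (hrank : Module.finrank F K = 2) {j : 𝕄}
    (hj : j ∈ K) (hns : ∀ z : F, j ≠ z • 1) (hskew : IsSkew j) {ν : F} (hν : ¬ IsSquare ν) (hsq : j * j = ν • 1)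
    {x : 𝔾} (hx : x ∈ Cfsg.spGL d F) {z : F} (hz : (x : 𝕄) * (x : 𝕄) = z • 1) :
    ∃ g ∈ Cfsg.spGL d F, g⁻¹ * x * g ∈ Cfsg.Geo.subalgebraNormalizer K := by
  have hν0 : ν ≠ 0 := fun h0 => hν ⟨0, by rw [h0, mul_zero]⟩
  obtain ⟨gK, hgK, hgKj⟩ := exists_conj_stdJ h2 hskew hν0 hsq
  haveI : Nonempty (Fin d) := ⟨⟨0, hd⟩⟩
  have hform : ∀ u v, 𝕗 ((x : 𝕄) *ᵥ u) ((x : 𝕄) *ᵥ v) = 𝕗 u v := GeoSp.mem_spGL.1 hx
  have hgKinv : ((gK⁻¹ : 𝔾) : 𝕄) * (gK : 𝕄) = 1 := by rw [← Units.val_mul, inv_mul_cancel, Units.val_one]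
  have hgKinv' : (gK : 𝕄) * ((gK⁻¹ : 𝔾) : 𝕄) = 1 := by rw [← Units.val_mul, mul_inv_cancel, Units.val_one]
  have finish : ∀ (g : 𝔾), g ∈ Cfsg.spGL d F → ∀ (D : 𝕄) (ε : F), ε * ε = 1 →
      (x : 𝕄) * (g : 𝕄) = (g : 𝕄) * D → D * stdJ d ν = ε • (stdJ d ν * D) →
      ∃ g ∈ Cfsg.spGL d F, g⁻¹ * x * g ∈ Cfsg.Geo.subalgebraNormalizer K := by
    intro g hg D ε hε hxg hD
    refine ⟨g * gK⁻¹, Subgroup.mul_mem _ hg (Subgroup.inv_mem _ hgK), mem_normalizer hd hrank hj hns _ ε hε ?_⟩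
    have hval : (((g * gK⁻¹)⁻¹ * x * (g * gK⁻¹) : 𝔾) : 𝕄) = (gK : 𝕄) * D * ((gK⁻¹ : 𝔾) : 𝕄) := by
      simp only [_root_.mul_inv_rev, inv_inv, Units.val_mul]
      rw [show (gK : 𝕄) * ((g⁻¹ : 𝔾) : 𝕄) * (x : 𝕄) * ((g : 𝕄) * ((gK⁻¹ : 𝔾) : 𝕄)) =
        (gK : 𝕄) * ((g⁻¹ : 𝔾) : 𝕄) * ((x : 𝕄) * (g : 𝕄)) * ((gK⁻¹ : 𝔾) : 𝕄) by simp only [mul_assoc], hxg,
        ← mul_assoc, mul_assoc (gK : 𝕄) ((g⁻¹ : 𝔾) : 𝕄), ← Units.val_mul, inv_mul_cancel, Units.val_one, mul_one]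
    rw [hval]
    have hjval : j = (gK : 𝕄) * stdJ d ν * ((gK⁻¹ : 𝔾) : 𝕄) := by rw [← hgKj, mul_assoc, hgKinv', mul_one]
    have conjmul : ∀ A B : 𝕄, (gK : 𝕄) * A * ((gK⁻¹ : 𝔾) : 𝕄) * ((gK : 𝕄) * B * ((gK⁻¹ : 𝔾) : 𝕄)) =
        (gK : 𝕄) * (A * B) * ((gK⁻¹ : 𝔾) : 𝕄) := fun A B => by
      rw [show (gK : 𝕄) * A * ((gK⁻¹ : 𝔾) : 𝕄) * ((gK : 𝕄) * B * ((gK⁻¹ : 𝔾) : 𝕄)) =
        (gK : 𝕄) * A * (((gK⁻¹ : 𝔾) : 𝕄) * (gK : 𝕄)) * B * ((gK⁻¹ : 𝔾) : 𝕄) by simp only [mul_assoc],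
        hgKinv, mul_one, mul_assoc (gK : 𝕄) A B]
    rw [hjval, conjmul, conjmul, hD, mul_smul_comm, smul_mul_assoc]
  have hxx : ∀ u, (x : 𝕄) *ᵥ ((x : 𝕄) *ᵥ u) = z • u := fun u => by
    rw [Matrix.mulVec_mulVec, hz, Matrix.smul_mulVec, Matrix.one_mulVec]
  have hz2 : z * z = 1 := by
    let i0 : Fin d := ⟨0, hd⟩
    obtain ⟨y, hy⟩ := SpGeom.exists_form_ne_zero (F := F) (v := (Pi.single (Sum.inl i0) 1 : 𝕍)) (by simp)
    have h1 := hform ((x : 𝕄) *ᵥ Pi.single (Sum.inl i0) 1) ((x : 𝕄) *ᵥ y)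
    rw [hxx, hxx, hform, SpGeom.form_smul_left, SpGeom.form_smul_right, ← mul_assoc] at h1
    exact mul_right_cancel₀ hy (h1.trans (one_mul _).symm)
  rcases mul_self_eq_one_iff.1 hz2 with rfl | rfl
  · obtain ⟨g, hg, D, hD, hDJ⟩ := exists_conj_diag h2 hform (by rw [hz, one_smul])
    exact finish g hg D 1 (one_mul 1) hD (by rw [one_smul, hDJ])
  · have hskx : IsSkew (x : 𝕄) := fun u v => by
      have h1 := hform u ((x : 𝕄) *ᵥ v)
      rw [hxx, neg_one_smul, ← neg_one_smul F v, SpGeom.form_smul_right] at h1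
      linear_combination -h1
    obtain ⟨a, b, hab⟩ := exists_binary h2 hν0 (-1)
    set D : 𝕄 := Matrix.fromBlocks (a • 1) (-(b * ν) • 1) (b • 1) (-a • 1) with hDdef
    have hDsk : IsSkew D := by
      intro u v
      rw [SpGeom.form_def, SpGeom.form_def, ← Finset.sum_neg_distrib]
      refine Finset.sum_congr rfl fun i _ => ?_
      simp only [hDdef, Matrix.fromBlocks_mulVec, Sum.elim_inl, Sum.elim_inr, Matrix.smul_mulVec,
        Matrix.one_mulVec, Pi.add_apply, Pi.smul_apply, Function.comp_apply, smul_eq_mul]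
      ring
    have hDsq : D * D = (-1 : F) • 1 := by
      rw [hDdef, Matrix.fromBlocks_multiply, ← Matrix.fromBlocks_one, Matrix.fromBlocks_smul, smul_zero]
      simp only [smul_mul_assoc, mul_smul_comm, mul_one, smul_smul, ← add_smul]
      congr 1
      · congr 1; linear_combination hab
      · rw [show -(b * ν) * a + -a * -(b * ν) = 0 by ring, zero_smul]
      · rw [show a * b + b * -a = 0 by ring, zero_smul]
      · congr 1; linear_combination hab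
    have hDJ : D * stdJ d ν = (-1 : F) • (stdJ d ν * D) := by
      rw [hDdef, stdJ, Matrix.fromBlocks_multiply, Matrix.fromBlocks_multiply, Matrix.fromBlocks_smul]
      simp only [smul_mul_assoc, mul_smul_comm, mul_one, one_mul, mul_zero, zero_mul, add_zero, zero_add, smul_smul,
        smul_zero, smul_add]
      congr 1 <;> (congr 1; ring)
    obtain ⟨g₁, hg₁, hg₁j⟩ := exists_conj_stdJ h2 hskx (neg_ne_zero.2 one_ne_zero) hz
    obtain ⟨g₂, hg₂, hg₂j⟩ := exists_conj_stdJ h2 hDsk (neg_ne_zero.2 one_ne_zero) hDsq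
    refine finish (g₁ * g₂⁻¹) (Subgroup.mul_mem _ hg₁ (Subgroup.inv_mem _ hg₂)) D (-1) (by ring) ?_ hDJ
    have hD' : D = (g₂ : 𝕄) * stdJ d (-1) * ((g₂⁻¹ : 𝔾) : 𝕄) := by
      rw [← hg₂j, mul_assoc, ← Units.val_mul, mul_inv_cancel, Units.val_one, mul_one]
    rw [hD', Units.val_mul, ← mul_assoc, hg₁j]
    rw [show (g₁ : 𝕄) * ((g₂⁻¹ : 𝔾) : 𝕄) * ((g₂ : 𝕄) * stdJ d (-1) * ((g₂⁻¹ : 𝔾) : 𝕄)) =
      (g₁ : 𝕄) * (((g₂⁻¹ : 𝔾) : 𝕄) * (g₂ : 𝕄)) * stdJ d (-1) * ((g₂⁻¹ : 𝔾) : 𝕄) by simp only [mul_assoc],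
      ← Units.val_mul, inv_mul_cancel, Units.val_one, mul_one]

/-- The elusiveness criterion. -/
theorem main {p : ℕ} [Fact p.Prime] [CharP F p] (hodd : Odd (Fintype.card F)) (hd : 1 ≤ d)
    (K : Subalgebra F 𝕄) (hK : Cfsg.Geo.IsFieldSubalgebra 2 K) (hKf : Cfsg.Geo.IsAdjointClosedFor 𝕗 K)
    (hKns : ¬ Cfsg.Geo.IsSelfAdjointFor 𝕗 K) (r : ℕ) [Fact r.Prime]
    (hΩ : r ∣ (Cfsg.Geo.subalgebraNormalizer K).relIndex (Cfsg.spGL d F)) :
    (∀ x ∈ Cfsg.spGL d F, (∃ z : F, ((x ^ r : 𝔾) : 𝕄) = z • (1 : 𝕄)) → (∀ z : F, (x : 𝕄) ≠ z • (1 : 𝕄)) →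
      ∃ g ∈ Cfsg.spGL d F, g⁻¹ * x * g ∈ Cfsg.Geo.subalgebraNormalizer K) ↔ r = 2 := by
  classical
  have h2 : (2 : F) ≠ 0 := by
    intro h0
    have hchar : ringChar F = 2 := by
      have hdvd := ringChar.dvd (R := F) (x := 2) (by exact_mod_cast h0)
      exact ((Nat.dvd_prime Nat.prime_two).1 hdvd).resolve_left CharP.ringChar_ne_one
    have := FiniteField.even_card_of_char_two hchar
    obtain ⟨k, hk⟩ := hodd
    omega
  obtain ⟨j, ν, hj, hskew, hν, hsq, hns⟩ := exists_skew_gen hd h2 K hK hKf hKns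
  constructor
  · intro hall
    by_contra hr2
    have hr : r.Prime := Fact.out
    have hν0 : ν ≠ 0 := fun h0 => hν ⟨0, by rw [h0, mul_zero]⟩
    obtain ⟨gK, hgK, hgKj⟩ := exists_conj_stdJ h2 hskew hν0 hsq
    obtain ⟨N, hN, H, hH, hHsp, hHJ⟩ := card_GU_dvd (d := d) h2 hν0 hν
    let Hc : Subgroup 𝔾 := H.map (MulAut.conj gK).toMonoidHom
    have hHc : Hc ≤ Cfsg.Geo.subalgebraNormalizer K ⊓ Cfsg.spGL d F := by
      rintro _ ⟨h, hh, rfl⟩
      refine ⟨mem_normalizer hd hK.finrank_eq hj hns _ 1 (one_mul 1) ?_,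
        Subgroup.mul_mem _ (Subgroup.mul_mem _ hgK (hHsp hh)) (Subgroup.inv_mem _ hgK)⟩
      have hjval : j = (gK : 𝕄) * stdJ d ν * ((gK⁻¹ : 𝔾) : 𝕄) := by
        rw [← hgKj, mul_assoc, ← Units.val_mul, mul_inv_cancel, Units.val_one, mul_one]
      have hinv : ((gK⁻¹ : 𝔾) : 𝕄) * (gK : 𝕄) = 1 := by rw [← Units.val_mul, inv_mul_cancel, Units.val_one]
      show ((gK * h * gK⁻¹ : 𝔾) : 𝕄) * j = (1 : F) • (j * ((gK * h * gK⁻¹ : 𝔾) : 𝕄))
      rw [one_smul, hjval, Units.val_mul, Units.val_mul]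
      calc _ = (gK : 𝕄) * ((h : 𝕄) * (((gK⁻¹ : 𝔾) : 𝕄) * (gK : 𝕄)) * stdJ d ν) * ((gK⁻¹ : 𝔾) : 𝕄) := by
            simp only [mul_assoc]
        _ = (gK : 𝕄) * (stdJ d ν * (((gK⁻¹ : 𝔾) : 𝕄) * (gK : 𝕄)) * (h : 𝕄)) * ((gK⁻¹ : 𝔾) : 𝕄) := by
            rw [hinv, mul_one, mul_one, hHJ h hh]
        _ = _ := by simp only [mul_assoc]
    have hcardHc : Nat.card Hc = N := by
      rw [← hH]
      exact (Nat.card_congr (Subgroup.equivMapOfInjective H _ (MulEquiv.injective (MulAut.conj gK))).toEquiv).symm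
    have hdvd : N ∣ Nat.card ↥(Cfsg.Geo.subalgebraNormalizer K ⊓ Cfsg.spGL d F) :=
      hcardHc ▸ Subgroup.card_dvd_of_le hHc
    have hmul : Nat.card ↥(Cfsg.Geo.subalgebraNormalizer K ⊓ Cfsg.spGL d F) *
        (Cfsg.Geo.subalgebraNormalizer K).relIndex (Cfsg.spGL d F) = Nat.card (Cfsg.spGL d F) := by
      rw [← Subgroup.inf_relIndex_right, Subgroup.relIndex,
        ← Nat.card_congr (Subgroup.subgroupOfEquivOfLe (inf_le_right :
          Cfsg.Geo.subalgebraNormalizer K ⊓ Cfsg.spGL d F ≤ Cfsg.spGL d F)).toEquiv]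
      exact Subgroup.card_mul_index _
    have eSp : Cfsg.spGL d F ≃ Matrix.symplecticGroup (Fin d) F :=
      Equiv.ofBijective (fun g => ⟨_, SpGeom.mem_of_form (GeoSp.mem_spGL.1 g.2)⟩)
        ⟨fun a b h => Subtype.ext (Units.ext (congrArg Subtype.val h)),
          fun A => ⟨⟨GeoSp.toG A, GeoSp.toG_mem A⟩, rfl⟩⟩
    rw [Nat.card_congr eSp, SpGeom.card_Sp, index_cancel Fintype.card_pos, ← hN] at hmul
    obtain ⟨t, ht⟩ := hdvd
    rw [ht, mul_assoc] at hmul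
    have hNpos : 0 < N := by
      rw [← hH]; exact Nat.card_pos
    have hX := Nat.eq_of_mul_eq_mul_left hNpos hmul
    obtain ⟨x, hx, hxr, hxns, hxav⟩ := exists_avoids (p := p) h2 hd hr2
      (hX ▸ Dvd.dvd.mul_left hΩ t)
    obtain ⟨g, hg, hgN⟩ := hall x hx ⟨1, by rw [Units.val_pow_eq_pow_val, hxr, one_smul]⟩ hxns
    have hyr : (((g⁻¹ * x * g : 𝔾)) : 𝕄) ^ r = 1 := by
      have : (g⁻¹ * x * g : 𝔾) ^ r = 1 := by
        have hx1 : x ^ r = 1 := Units.ext (by rw [Units.val_pow_eq_pow_val, hxr, Units.val_one])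
        have := map_pow (MulAut.conj g⁻¹) x r
        simp only [MulAut.conj_apply, inv_inv] at this
        rw [← this, hx1, mul_one, inv_mul_cancel]
      rw [← Units.val_pow_eq_pow_val, this, Units.val_one]
    have hc := comm_of_normalizer hd h2 hK.finrank_eq hj hns hν hsq hgN (hr.odd_of_ne_two hr2) hyr
    have hginv : (g : 𝕄) * ((g⁻¹ : 𝔾) : 𝕄) = 1 := by rw [← Units.val_mul, mul_inv_cancel, Units.val_one]
    have hginv' : ((g⁻¹ : 𝔾) : 𝕄) * (g : 𝕄) = 1 := by rw [← Units.val_mul, inv_mul_cancel, Units.val_one]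
    refine hxav ((g : 𝕄) * j * ((g⁻¹ : 𝔾) : 𝕄)) ν ?_ hν ?_ ?_
    · intro u v
      have hgi := GeoSp.mem_spGL.1 (Subgroup.inv_mem _ hg)
      have hgf := GeoSp.mem_spGL.1 hg
      rw [← Matrix.mulVec_mulVec, ← Matrix.mulVec_mulVec, ← Matrix.mulVec_mulVec, ← Matrix.mulVec_mulVec]
      conv_lhs => rw [← Matrix.one_mulVec v, ← hginv, ← Matrix.mulVec_mulVec, hgf, hskew]
      conv_rhs => rw [← Matrix.one_mulVec u, ← hginv, ← Matrix.mulVec_mulVec, hgf]
    · calc _ = (g : 𝕄) * j * (((g⁻¹ : 𝔾) : 𝕄) * (g : 𝕄)) * (j * ((g⁻¹ : 𝔾) : 𝕄)) := by simp only [mul_assoc]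
        _ = ν • 1 := by
          rw [hginv', mul_one, mul_assoc (g : 𝕄), ← mul_assoc j, hsq, smul_mul_assoc, one_mul, mul_smul_comm, hginv]
    · have hxe : (x : 𝕄) = (g : 𝕄) * ((g⁻¹ * x * g : 𝔾) : 𝕄) * ((g⁻¹ : 𝔾) : 𝕄) := by
        rw [← Units.val_mul, ← Units.val_mul]
        congr 1
        group
      rw [hxe]
      generalize ((g⁻¹ * x * g : 𝔾) : 𝕄) = Y at hc
      calc _ = (g : 𝕄) * (j * (((g⁻¹ : 𝔾) : 𝕄) * (g : 𝕄)) * Y) * ((g⁻¹ : 𝔾) : 𝕄) := by simp only [mul_assoc]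
        _ = (g : 𝕄) * (Y * (((g⁻¹ : 𝔾) : 𝕄) * (g : 𝕄)) * j) * ((g⁻¹ : 𝔾) : 𝕄) := by
            rw [hginv', mul_one, mul_one, hc]
        _ = _ := by simp only [mul_assoc]
  · rintro rfl x hx ⟨z, hz⟩ _
    exact two_fixes hd h2 hK.finrank_eq hj hns hskew hν hsq hx (z := z) (by rw [← hz, sq, Units.val_mul])

end CfsgLib.SpSkew
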