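import Cfsg.Agent.SpGeom.Basic
import Cfsg.Agent.GeoLib.SpGL
import Cfsg.Prelude.Def_GeometricClasses
import Mathlib

/-!
Symplectic bases adapted to a skew square root of a scalar or to a self-adjoint involution.
-/

set_option autoImplicit false

namespace CfsgLib.SpSkew

open Matrix CfsgLib.SpGeom

variable {F : Type*} [Field F] {d : ℕ}

local notation "𝕍" => (Fin d ⊕ Fin d → F)
local notation "𝕄" => Matrix (Fin d ⊕ Fin d) (Fin d ⊕ Fin d) F
local notation "𝔾" => GL (Fin d ⊕ Fin d) F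
local notation "𝕗" => Cfsg.sympForm d F

/-- The standard form is nondegenerate on the subspace. -/
def NDW (W : Submodule F 𝕍) : Prop := ∀ u ∈ W, (∀ w ∈ W, 𝕗 u w = 0) → u = 0

theorem exists_family (T : 𝕍 →ₗ[F] 𝕍) (c : F) (hc : c ≠ 0) (hT : ∀ u v, 𝕗 (T u) v = c * 𝕗 u (T v))
    (P : 𝕍 → 𝕍 → Prop)
    (step : ∀ W : Submodule F 𝕍, NDW W → (∀ u ∈ W, T u ∈ W) → W ≠ ⊥ → ∃ v ∈ W, ∃ w ∈ W,
      𝕗 w v = 1 ∧ T v ∈ Submodule.span F {v, w} ∧ T w ∈ Submodule.span F {v, w} ∧ P v w) :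
    ∀ n, ∀ W : Submodule F 𝕍, NDW W → (∀ u ∈ W, T u ∈ W) → Module.finrank F W = n →
      ∃ (k : ℕ) (v w : Fin k → 𝕍), n = 2 * k ∧ (∀ i, v i ∈ W ∧ w i ∈ W ∧ P (v i) (w i)) ∧
        ∀ i j, 𝕗 (v i) (v j) = 0 ∧ 𝕗 (w i) (w j) = 0 ∧ 𝕗 (w i) (v j) = if i = j then 1 else 0 := by
  intro n
  induction n using Nat.strong_induction_on with
  | _ n ih =>
    intro W hW hTW hn
    rcases eq_or_ne W ⊥ with rfl | hne
    · rw [finrank_bot] at hn
      exact ⟨0, Fin.elim0, Fin.elim0, by omega, fun i => i.elim0, fun i => i.elim0⟩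
    obtain ⟨v, hv, w, hw, hwv, hTv, hTw, hP⟩ := step W hW hTW hne
    have hvw : 𝕗 v w = -1 := by rw [form_skew, hwv]
    let φ : W →ₗ[F] F × F :=
      { toFun := fun u => (𝕗 v (u : 𝕍), 𝕗 w (u : 𝕍))
        map_add' := fun a b => by simp [form_add_right]
        map_smul' := fun a b => by simp [form_smul_right] }
    have hφ : Function.Surjective φ := fun ⟨a, b⟩ =>
      ⟨⟨b • v - a • w, W.sub_mem (W.smul_mem _ hv) (W.smul_mem _ hw)⟩, by
        show (𝕗 v (b • v - a • w), 𝕗 w (b • v - a • w)) = (a, b)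
        rw [form_sub_right, form_sub_right, form_smul_right, form_smul_right, form_smul_right, form_smul_right,
          form_self, form_self, hvw, hwv]
        ext <;> simp⟩
    set W' : Submodule F 𝕍 := (LinearMap.ker φ).map W.subtype with hW'def
    have hmem : ∀ u, u ∈ W' ↔ u ∈ W ∧ 𝕗 v u = 0 ∧ 𝕗 w u = 0 := by
      intro u
      constructor
      · rintro ⟨⟨u', hu'⟩, hk, rfl⟩
        have := LinearMap.mem_ker.1 hk
        exact ⟨hu', (Prod.ext_iff.1 this).1, (Prod.ext_iff.1 this).2⟩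
      · rintro ⟨hu, h1, h2⟩
        exact ⟨⟨u, hu⟩, LinearMap.mem_ker.2 (Prod.ext h1 h2), rfl⟩
    have hspan : ∀ u, 𝕗 v u = 0 → 𝕗 w u = 0 → ∀ x ∈ Submodule.span F {v, w}, 𝕗 x u = 0 := by
      intro u h1 h2 x hx
      obtain ⟨a, b, rfl⟩ := Submodule.mem_span_pair.1 hx
      rw [form_add_left, form_smul_left, form_smul_left, h1, h2]; ring
    have hTW' : ∀ u ∈ W', T u ∈ W' := by
      intro u hu
      obtain ⟨hu0, h1, h2⟩ := (hmem u).1 hu
      refine (hmem _).2 ⟨hTW u hu0, ?_, ?_⟩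
      · have := hT v u
        rw [hspan u h1 h2 _ hTv] at this
        simpa [hc] using this.symm
      · have := hT w u
        rw [hspan u h1 h2 _ hTw] at this
        simpa [hc] using this.symm
    have hW' : NDW W' := by
      intro u hu h
      obtain ⟨hu0, h1, h2⟩ := (hmem u).1 hu
      refine hW u hu0 fun x hx => ?_
      have hx' : x - (𝕗 w x) • v + (𝕗 v x) • w ∈ W' := by
        refine (hmem _).2 ⟨W.add_mem (W.sub_mem hx (W.smul_mem _ hv)) (W.smul_mem _ hw), ?_, ?_⟩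
        · rw [form_add_right, form_sub_right, form_smul_right, form_smul_right, form_self, hvw]; ring
        · rw [form_add_right, form_sub_right, form_smul_right, form_smul_right, form_self, hwv]; ring
      have h3 := h _ hx'
      have huv : 𝕗 u v = 0 := by rw [form_skew, h1, neg_zero]
      have huw : 𝕗 u w = 0 := by rw [form_skew, h2, neg_zero]
      rw [form_add_right, form_sub_right, form_smul_right, form_smul_right, huv, huw] at h3
      simpa using h3
    have hdim : Module.finrank F W' + 2 = n := by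
      have h1 := LinearMap.finrank_range_add_finrank_ker φ
      rw [LinearMap.range_eq_top.2 hφ, finrank_top, Module.finrank_prod, Module.finrank_self, hn] at h1
      rw [hW'def, (Submodule.equivMapOfInjective W.subtype W.subtype_injective _).symm.finrank_eq]
      omega
    obtain ⟨k, vs, ws, hk, hmemW, hrel⟩ := ih (Module.finrank F W') (by omega) W' hW' hTW' rfl
    refine ⟨k + 1, Fin.cons v vs, Fin.cons w ws, by omega, ?_, ?_⟩
    · intro i
      refine Fin.cases ?_ (fun i => ?_) i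
      · exact ⟨hv, hw, hP⟩
      · simp only [Fin.cons_succ]
        exact ⟨((hmem _).1 (hmemW i).1).1, ((hmem _).1 (hmemW i).2.1).1, (hmemW i).2.2⟩
    · have hperp : ∀ i, 𝕗 v (vs i) = 0 ∧ 𝕗 w (vs i) = 0 ∧ 𝕗 v (ws i) = 0 ∧ 𝕗 w (ws i) = 0 := fun i =>
        ⟨((hmem _).1 (hmemW i).1).2.1, ((hmem _).1 (hmemW i).1).2.2, ((hmem _).1 (hmemW i).2.1).2.1,
          ((hmem _).1 (hmemW i).2.1).2.2⟩
      intro i j
      refine Fin.cases ?_ (fun i => ?_) i <;> refine Fin.cases ?_ (fun j => ?_) j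
      · simp only [Fin.cons_zero, if_true]
        exact ⟨form_self v, form_self w, hwv⟩
      · simp only [Fin.cons_zero, Fin.cons_succ, (Fin.succ_ne_zero j).symm, if_false]
        exact ⟨(hperp j).1, (hperp j).2.2.2, (hperp j).2.1⟩
      · simp only [Fin.cons_zero, Fin.cons_succ, Fin.succ_ne_zero i, if_false]
        refine ⟨?_, ?_, ?_⟩ <;> rw [form_skew]
        · rw [(hperp i).1, neg_zero]
        · rw [(hperp i).2.2.2, neg_zero]
        · rw [(hperp i).2.2.1, neg_zero]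
      · simp only [Fin.cons_succ, Fin.succ_inj]
        exact hrel i j

/-- The symplectic map of a full hyperbolic family. -/
theorem exists_gl_of_family (vs ws : Fin d → 𝕍)
    (hrel : ∀ i j, 𝕗 (vs i) (vs j) = 0 ∧ 𝕗 (ws i) (ws j) = 0 ∧ 𝕗 (ws i) (vs j) = if i = j then 1 else 0) :
    ∃ g ∈ Cfsg.spGL d F, ∀ i, (g : 𝕄) *ᵥ Pi.single (Sum.inl i) 1 = vs i ∧ (g : 𝕄) *ᵥ Pi.single (Sum.inr i) 1 = ws i := by
  classical
  let L : 𝕍 →ₗ[F] 𝕍 :=
    { toFun := fun x => ∑ i, (x (Sum.inl i) • vs i + x (Sum.inr i) • ws i)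
      map_add' := fun x y => by
        rw [← Finset.sum_add_distrib]
        exact Finset.sum_congr rfl fun i _ => by simp only [Pi.add_apply]; module
      map_smul' := fun a x => by
        rw [Finset.smul_sum]
        exact Finset.sum_congr rfl fun i _ => by
          simp only [Pi.smul_apply, smul_eq_mul, RingHom.id_apply]; module }
  have hLl : ∀ i, L (Pi.single (Sum.inl i) 1) = vs i := fun i => by
    show (∑ j : Fin d, ((Pi.single (Sum.inl i) (1:F) : 𝕍) (Sum.inl j) • vs j + (Pi.single (Sum.inl i) (1:F) : 𝕍) (Sum.inr j) • ws j)) = _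
    rw [Finset.sum_eq_single i] <;> simp +contextual
  have hLr : ∀ i, L (Pi.single (Sum.inr i) 1) = ws i := fun i => by
    show (∑ j : Fin d, ((Pi.single (Sum.inr i) (1:F) : 𝕍) (Sum.inl j) • vs j + (Pi.single (Sum.inr i) (1:F) : 𝕍) (Sum.inr j) • ws j)) = _
    rw [Finset.sum_eq_single i] <;> simp +contextual
  have hsum : ∀ (u : 𝕍) (s : Fin d → 𝕍), 𝕗 u (∑ i, s i) = ∑ i, 𝕗 u (s i) := fun u s => by
    classical
    induction (Finset.univ : Finset (Fin d)) using Finset.induction_on with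
    | empty => simp [form_zero_right]
    | insert a t ha ih => rw [Finset.sum_insert ha, Finset.sum_insert ha, form_add_right, ih]
  have hsum' : ∀ (u : 𝕍) (s : Fin d → 𝕍), 𝕗 (∑ i, s i) u = ∑ i, 𝕗 (s i) u := fun u s => by
    rw [form_skew, hsum, ← Finset.sum_neg_distrib]
    exact Finset.sum_congr rfl fun i _ => by rw [← form_skew]
  have hL : ∀ x y, 𝕗 (L x) (L y) = 𝕗 x y := by
    intro x y
    show 𝕗 (∑ i : Fin d, (x (Sum.inl i) • vs i + x (Sum.inr i) • ws i)) (∑ i : Fin d, (y (Sum.inl i) • vs i + y (Sum.inr i) • ws i)) = _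
    rw [hsum', form_def x y]
    refine Finset.sum_congr rfl fun i _ => ?_
    rw [hsum, Finset.sum_eq_single i]
    · have hvw : 𝕗 (vs i) (ws i) = -1 := by rw [form_skew, (hrel i i).2.2, if_pos rfl]
      rw [form_add_left, form_add_right, form_add_right]
      simp only [form_smul_left, form_smul_right, form_self, hvw, (hrel i i).2.2, if_pos]
      ring
    · intro j _ hji
      have hvw : 𝕗 (vs i) (ws j) = 0 := by rw [form_skew, (hrel j i).2.2, if_neg hji, neg_zero]
      rw [form_add_left, form_add_right, form_add_right]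
      simp only [form_smul_left, form_smul_right, (hrel i j).1, (hrel i j).2.1, hvw, (hrel i j).2.2, if_neg (Ne.symm hji)]
      ring
    · simp
  have hinj : Function.Injective L := (injective_iff_map_eq_zero L).2 fun x hx => by
    by_contra hx0
    obtain ⟨y, hy⟩ := exists_form_ne_zero hx0
    rw [← hL, hx, form_zero_left] at hy
    exact hy rfl
  have hdet : (LinearMap.toMatrix' L).det ≠ 0 := by
    rw [LinearMap.det_toMatrix']
    exact fun h => (LinearMap.bot_lt_ker_of_det_eq_zero h).ne (LinearMap.ker_eq_bot.2 hinj).symm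
  refine ⟨GeneralLinearGroup.mkOfDetNeZero _ hdet, ?_, fun i => ?_⟩
  · refine GeoSp.mem_spGL.2 fun u v => ?_
    show 𝕗 (LinearMap.toMatrix' L *ᵥ u) (LinearMap.toMatrix' L *ᵥ v) = _
    rw [LinearMap.toMatrix'_mulVec, LinearMap.toMatrix'_mulVec, hL]
  · show LinearMap.toMatrix' L *ᵥ _ = _ ∧ LinearMap.toMatrix' L *ᵥ _ = _
    rw [LinearMap.toMatrix'_mulVec, LinearMap.toMatrix'_mulVec, hLl, hLr]
    exact ⟨rfl, rfl⟩

/-- A symplectic change of basis from a hyperbolic family. -/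
theorem exists_gl (T : 𝕍 →ₗ[F] 𝕍) (c : F) (hc : c ≠ 0) (hT : ∀ u v, 𝕗 (T u) v = c * 𝕗 u (T v))
    (P : 𝕍 → 𝕍 → Prop)
    (step : ∀ W : Submodule F 𝕍, NDW W → (∀ u ∈ W, T u ∈ W) → W ≠ ⊥ → ∃ v ∈ W, ∃ w ∈ W,
      𝕗 w v = 1 ∧ T v ∈ Submodule.span F {v, w} ∧ T w ∈ Submodule.span F {v, w} ∧ P v w) :
    ∃ g ∈ Cfsg.spGL d F, ∀ i, P ((g : 𝕄) *ᵥ Pi.single (Sum.inl i) 1) ((g : 𝕄) *ᵥ Pi.single (Sum.inr i) 1) := by
  classical
  have htop : NDW (⊤ : Submodule F 𝕍) := fun u _ h => by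
    by_contra hu
    obtain ⟨y, hy⟩ := exists_form_ne_zero hu
    exact hy (h y trivial)
  obtain ⟨k, vs, ws, hk, hmemW, hrel⟩ := exists_family T c hc hT P step (2 * d) ⊤ htop (fun _ _ => trivial)
    (by rw [finrank_top, Module.finrank_fintype_fun_eq_card, Fintype.card_sum, Fintype.card_fin, two_mul])
  obtain rfl : d = k := by omega
  obtain ⟨g, hg, hgi⟩ := exists_gl_of_family vs ws hrel
  refine ⟨g, hg, fun i => ?_⟩
  rw [(hgi i).1, (hgi i).2]
  exact (hmemW i).2.2

theorem ext_single {A B : 𝕄} (hl : ∀ i, A *ᵥ Pi.single (Sum.inl i) 1 = B *ᵥ Pi.single (Sum.inl i) 1)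
    (hr : ∀ i, A *ᵥ Pi.single (Sum.inr i) 1 = B *ᵥ Pi.single (Sum.inr i) 1) : A = B := by
  ext i j
  rcases j with j | j
  · simpa [Matrix.mulVec_single_one] using congrFun (hl j) i
  · simpa [Matrix.mulVec_single_one] using congrFun (hr j) i

/-- Standard skew square root of `ν`. -/
def stdJ (d : ℕ) (ν : F) : Matrix (Fin d ⊕ Fin d) (Fin d ⊕ Fin d) F :=
  Matrix.fromBlocks 0 (ν • 1) 1 0

theorem stdJ_inl (ν : F) (i : Fin d) :
    stdJ d ν *ᵥ Pi.single (Sum.inl i) 1 = Pi.single (Sum.inr i) 1 := by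
  rw [Matrix.mulVec_single_one]
  funext k
  rcases k with k | k <;> simp [stdJ, Matrix.one_apply, Pi.single_apply]

theorem stdJ_inr (ν : F) (i : Fin d) :
    stdJ d ν *ᵥ Pi.single (Sum.inr i) 1 = ν • Pi.single (Sum.inl i) 1 := by
  rw [Matrix.mulVec_single_one]
  funext k
  rcases k with k | k <;> simp [stdJ, Matrix.one_apply, Pi.single_apply]

/-- Skew for the standard form. -/
def IsSkew (j : 𝕄) : Prop := ∀ u v, 𝕗 (j *ᵥ u) v = - 𝕗 u (j *ᵥ v)

theorem stdJ_skew (ν : F) : IsSkew (stdJ d ν) := by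
  intro u v
  rw [form_def, form_def, ← Finset.sum_neg_distrib]
  refine Finset.sum_congr rfl fun i _ => ?_
  simp only [stdJ, Matrix.fromBlocks_mulVec, Sum.elim_inl, Sum.elim_inr]
  simp only [Matrix.zero_mulVec, Matrix.smul_mulVec, Matrix.one_mulVec, zero_add, add_zero, Pi.smul_apply,
    Function.comp_apply, smul_eq_mul]
  ring

theorem stdJ_sq (ν : F) : stdJ d ν * stdJ d ν = ν • 1 := by
  rw [stdJ, Matrix.fromBlocks_multiply]
  simp only [zero_mul, mul_zero, zero_add, add_zero, Matrix.mul_one, Matrix.one_mul]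
  rw [← Matrix.fromBlocks_one, Matrix.fromBlocks_smul, smul_zero]

variable [Fintype F]

theorem exists_binary (h2 : (2 : F) ≠ 0) {ν : F} (hν : ν ≠ 0) (t : F) : ∃ a b : F, a * a - b * b * ν = t := by
  have hodd : Fintype.card F % 2 = 1 := by
    refine FiniteField.odd_card_of_char_ne_two fun h => h2 ?_
    have := ringChar.spec F 2
    rw [h] at this
    exact_mod_cast (this.2 dvd_rfl)
  obtain ⟨a, b, hab⟩ := FiniteField.exists_root_sum_quadratic (f := Polynomial.X ^ 2)
    (g := Polynomial.C (-ν) * Polynomial.X ^ 2 + Polynomial.C (-t))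
    (Polynomial.degree_X_pow 2)
    (by
      rw [Polynomial.degree_add_eq_left_of_degree_lt, Polynomial.degree_C_mul_X_pow 2 (neg_ne_zero.2 hν)]
      · rfl
      · rw [Polynomial.degree_C_mul_X_pow 2 (neg_ne_zero.2 hν)]
        exact lt_of_le_of_lt Polynomial.degree_C_le (by norm_num))
    hodd
  refine ⟨a, b, ?_⟩
  simp only [Polynomial.eval_pow, Polynomial.eval_X, Polynomial.eval_add, Polynomial.eval_mul,
    Polynomial.eval_C] at hab
  linear_combination hab

/-- All skew square roots of a nonzero scalar are conjugate in the symplectic group. -/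
theorem exists_conj_stdJ (h2 : (2 : F) ≠ 0) {j : 𝕄} (hj : IsSkew j) {ν : F} (hν : ν ≠ 0)
    (hsq : j * j = ν • 1) : ∃ g ∈ Cfsg.spGL d F, j * (g : 𝕄) = (g : 𝕄) * stdJ d ν := by
  have hjj : ∀ x, j *ᵥ (j *ᵥ x) = ν • x := fun x => by
    rw [Matrix.mulVec_mulVec, hsq, Matrix.smul_mulVec, Matrix.one_mulVec]
  obtain ⟨g, hg, hP⟩ := exists_gl (Matrix.mulVecLin j) (-1) (neg_ne_zero.2 one_ne_zero)
    (fun u v => by simp only [Matrix.mulVecLin_apply]; rw [hj]; ring) (fun v w => j *ᵥ v = w) (by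
      intro W hW hTW hne
      simp only [Matrix.mulVecLin_apply] at hTW
      have hex : ∃ v ∈ W, 𝕗 (j *ᵥ v) v ≠ 0 := by
        by_contra hcon
        push Not at hcon
        refine hne ((Submodule.eq_bot_iff W).2 fun u hu => ?_)
        have h0 : ∀ w ∈ W, 𝕗 (j *ᵥ u) w = 0 := fun w hw => by
          have h1 := hcon _ (W.add_mem hu hw)
          rw [Matrix.mulVec_add, form_add_left, form_add_right, form_add_right, hcon u hu, hcon w hw] at h1
          have h4 : 𝕗 (j *ᵥ w) u = 𝕗 (j *ᵥ u) w := by rw [hj, form_skew, neg_neg]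
          rw [h4] at h1
          have h5 : (2 : F) * 𝕗 (j *ᵥ u) w = 0 := by linear_combination h1
          exact (mul_eq_zero.1 h5).resolve_left h2
        have := hW _ (hTW u hu) h0
        have h3 := hjj u
        rw [this, Matrix.mulVec_zero] at h3
        exact (smul_eq_zero.1 h3.symm).resolve_left hν
      obtain ⟨v, hv, hv0⟩ := hex
      obtain ⟨a, b, hab⟩ := exists_binary h2 hν (𝕗 (j *ᵥ v) v)⁻¹
      have hu : a • v + b • (j *ᵥ v) ∈ W := W.add_mem (W.smul_mem _ hv) (W.smul_mem _ (hTW v hv))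
      refine ⟨_, hu, _, hTW _ hu, ?_, ?_, ?_, rfl⟩
      · have hju : j *ᵥ (a • v + b • (j *ᵥ v)) = (b * ν) • v + a • (j *ᵥ v) := by
          rw [Matrix.mulVec_add, Matrix.mulVec_smul, Matrix.mulVec_smul, hjj, smul_smul, add_comm]
        rw [hju, form_add_left, form_add_right, form_add_right]
        simp only [form_smul_left, form_smul_right, form_self]
        rw [form_skew (j *ᵥ v) v]
        calc _ = (a * a - b * b * ν) * 𝕗 (j *ᵥ v) v := by ring
          _ = 1 := by rw [hab, inv_mul_cancel₀ hv0]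
      · exact Submodule.subset_span (by simp [Matrix.mulVecLin_apply])
      · rw [Matrix.mulVecLin_apply, hjj]
        exact Submodule.smul_mem _ _ (Submodule.subset_span (by simp)))
  refine ⟨g, hg, ext_single (fun i => ?_) fun i => ?_⟩
  · rw [← Matrix.mulVec_mulVec, ← Matrix.mulVec_mulVec, stdJ_inl, hP i]
  · rw [← Matrix.mulVec_mulVec, ← Matrix.mulVec_mulVec, stdJ_inr, Matrix.mulVec_smul, ← hP i, hjj]

omit [Fintype F] in
/-- A symplectic involution is conjugate to one commuting with every standard root. -/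
theorem exists_conj_eigen (h2 : (2 : F) ≠ 0) {x : 𝕄} (hx : ∀ u v, 𝕗 (x *ᵥ u) (x *ᵥ v) = 𝕗 u v)
    (hsq : x * x = 1) :
    ∃ g ∈ Cfsg.spGL d F, ∃ e : Fin d → F, (∀ i, e i * e i = 1) ∧
      x * (g : 𝕄) = (g : 𝕄) * Matrix.diagonal (Sum.elim e e) := by
  classical
  have hxx : ∀ u, x *ᵥ (x *ᵥ u) = u := fun u => by rw [Matrix.mulVec_mulVec, hsq, Matrix.one_mulVec]
  obtain ⟨g, hg, hP⟩ := exists_gl (Matrix.mulVecLin x) 1 one_ne_zero
    (fun u v => by
      simp only [Matrix.mulVecLin_apply, one_mul]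
      have := hx u (x *ᵥ v)
      rwa [hxx] at this)
    (fun v w => ∃ ε : F, ε * ε = 1 ∧ x *ᵥ v = ε • v ∧ x *ᵥ w = ε • w) (by
      intro W hW hTW hne
      simp only [Matrix.mulVecLin_apply] at hTW
      obtain ⟨u, hu, hu0⟩ := (Submodule.ne_bot_iff W).1 hne
      have hev : ∃ ε : F, ε * ε = 1 ∧ ∃ v ∈ W, v ≠ 0 ∧ x *ᵥ v = ε • v := by
        rcases eq_or_ne (u + x *ᵥ u) 0 with h | h
        · exact ⟨-1, by ring, u, hu, hu0, by rw [neg_one_smul, eq_neg_iff_add_eq_zero, add_comm, h]⟩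
        · exact ⟨1, one_mul 1, _, W.add_mem hu (hTW u hu), h, by
            rw [Matrix.mulVec_add, hxx, one_smul, add_comm]⟩
      obtain ⟨ε, hε, v, hv, hv0, hxv⟩ := hev
      obtain ⟨w0, hw0, hf⟩ : ∃ w0 ∈ W, 𝕗 v w0 ≠ 0 := by
        by_contra hcon
        push Not at hcon
        exact hv0 (hW v hv hcon)
      obtain ⟨w1, hw1, hf1⟩ : ∃ w1 ∈ W, 𝕗 w1 v = 1 :=
        ⟨(-(𝕗 v w0)⁻¹) • w0, W.smul_mem _ hw0, by
          rw [form_smul_left, form_skew v w0, neg_mul_neg, inv_mul_cancel₀ hf]⟩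
      have hxw : x *ᵥ ((2 : F)⁻¹ • (w1 + ε • (x *ᵥ w1))) = ε • ((2 : F)⁻¹ • (w1 + ε • (x *ᵥ w1))) := by
        rw [Matrix.mulVec_smul, Matrix.mulVec_add, Matrix.mulVec_smul, hxx, smul_comm ε, smul_add ε,
          smul_smul ε ε, hε, one_smul, add_comm]
      refine ⟨v, hv, _, W.smul_mem _ (W.add_mem hw1 (W.smul_mem _ (hTW w1 hw1))), ?_, ?_, ?_, ε, hε, hxv, hxw⟩
      · have h1 : 𝕗 (x *ᵥ w1) v = ε := by
          have h3 := hx w1 v
          rw [hxv, form_smul_right, hf1] at h3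
          calc 𝕗 (x *ᵥ w1) v = ε * (ε * 𝕗 (x *ᵥ w1) v) := by rw [← mul_assoc, hε, one_mul]
            _ = ε := by rw [h3, mul_one]
        rw [form_smul_left, form_add_left, form_smul_left, h1, hf1, hε, show (1 : F) + 1 = 2 by norm_num,
          inv_mul_cancel₀ h2]
      · rw [Matrix.mulVecLin_apply, hxv]
        exact Submodule.smul_mem _ _ (Submodule.subset_span (by simp))
      · rw [Matrix.mulVecLin_apply, hxw]
        exact Submodule.smul_mem _ _ (Submodule.subset_span (by simp)))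
  choose ε hε using hP
  refine ⟨g, hg, ε, fun i => (hε i).1, ext_single (fun i => ?_) (fun i => ?_)⟩
  · rw [← Matrix.mulVec_mulVec, ← Matrix.mulVec_mulVec, (hε i).2.1, Matrix.diagonal_mulVec_single]
    rw [← Matrix.mulVec_smul]
    congr 1
    funext k
    simp [Pi.single_apply]
  · rw [← Matrix.mulVec_mulVec, ← Matrix.mulVec_mulVec, (hε i).2.2, Matrix.diagonal_mulVec_single]
    rw [← Matrix.mulVec_smul]
    congr 1
    funext k
    simp [Pi.single_apply]

omit [Fintype F] in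
/-- A symplectic involution is conjugate to one commuting with every standard root. -/
theorem exists_conj_diag (h2 : (2 : F) ≠ 0) {x : 𝕄} (hx : ∀ u v, 𝕗 (x *ᵥ u) (x *ᵥ v) = 𝕗 u v)
    (hsq : x * x = 1) :
    ∃ g ∈ Cfsg.spGL d F, ∃ D : 𝕄, x * (g : 𝕄) = (g : 𝕄) * D ∧ ∀ ν : F, D * stdJ d ν = stdJ d ν * D := by
  classical
  obtain ⟨g, hg, e, -, he⟩ := exists_conj_eigen h2 hx hsq
  refine ⟨g, hg, _, he, fun ν => ?_⟩
  rw [← Matrix.fromBlocks_diagonal, stdJ, Matrix.fromBlocks_multiply, Matrix.fromBlocks_multiply]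
  simp

end CfsgLib.SpSkew
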