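import Cfsg.Agent.SpSkew.Basis
import Cfsg.Agent.Forms.SympEmbed
import Mathlib

/-!
Symplectic elements of prime order commuting with no skew root of a non-square.
-/

set_option autoImplicit false

namespace CfsgLib.SpSkew

open Matrix

variable {F : Type*} [Field F] [Fintype F] {d : ℕ}

local notation "𝕍" => (Fin d ⊕ Fin d → F)
local notation "𝕄" => Matrix (Fin d ⊕ Fin d) (Fin d ⊕ Fin d) F
local notation "𝔾" => GL (Fin d ⊕ Fin d) F
local notation "𝕗" => Cfsg.sympForm d F

/-- The required element. -/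
def Avoids (r : ℕ) (x : GL (Fin d ⊕ Fin d) F) : Prop :=
  x ∈ Cfsg.spGL d F ∧ (x : 𝕄) ^ r = 1 ∧ (∀ z : F, (x : 𝕄) ≠ z • 1) ∧
    ∀ (j : 𝕄) (ν : F), IsSkew j → ¬ IsSquare ν → j * j = ν • 1 → j * (x : 𝕄) ≠ (x : 𝕄) * j

omit [Fintype F] in
theorem even_finrank {M : Type*} [AddCommGroup M] [Module F M] [FiniteDimensional F M] (α : M →ₗ[F] M) {ν : F}
    (hν : ¬ IsSquare ν) (h : ∀ z, α (α z) = ν • z) : Even (Module.finrank F M) := by
  by_contra hodd
  obtain ⟨k, hk⟩ := Nat.not_even_iff_odd.1 hodd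
  have hc : α ∘ₗ α = ν • (LinearMap.id : M →ₗ[F] M) := LinearMap.ext h
  have h1 : LinearMap.det α * LinearMap.det α = ν ^ Module.finrank F M := by
    rw [← LinearMap.det_comp, hc, LinearMap.det_smul, LinearMap.det_id, mul_one]
  have hν0 : ν ≠ 0 := fun h0 => hν ⟨0, by rw [h0, mul_zero]⟩
  refine hν ⟨LinearMap.det α / ν ^ k, ?_⟩
  rw [hk, pow_succ, pow_mul] at h1
  field_simp
  linear_combination -h1

theorem transvection_avoids {p : ℕ} [Fact p.Prime] [CharP F p] (hd : 1 ≤ d) :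
    ∃ x : GL (Fin d ⊕ Fin d) F, Avoids p x := by
  classical
  let i0 : Fin d := ⟨0, hd⟩
  set v : 𝕍 := Pi.single (Sum.inl i0) 1 with hv
  have hmul : ∀ u : 𝕍, ((GeoSp.tvGL v (1 : F)) : 𝕄) *ᵥ u = u + u (Sum.inr i0) • v := fun u => by
    rw [GeoSp.tvGL_mulVec, one_mul, hv, SpGeom.form_single_inl_right]
  have hpow : ∀ k : ℕ, (GeoSp.tvGL v (1 : F)) ^ k = GeoSp.tvGL v (k : F) := by
    intro k
    induction k with
    | zero => rw [pow_zero, Nat.cast_zero, GeoSp.tvGL_zero]
    | succ k ih => rw [pow_succ, ih, GeoSp.tvGL_mul, Nat.cast_succ]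
  refine ⟨GeoSp.tvGL v 1, GeoSp.tvGL_mem _ _, ?_, ?_, ?_⟩
  · rw [← Units.val_pow_eq_pow_val, hpow, CharP.cast_eq_zero, GeoSp.tvGL_zero, Units.val_one]
  · intro z hz
    have h1 := congrFun (hmul (Pi.single (Sum.inr i0) 1)) (Sum.inl i0)
    rw [hz, Matrix.smul_mulVec, Matrix.one_mulVec] at h1
    simp [hv] at h1
  · intro j ν hj hν hsq hcomm
    have hjv : ∀ u : 𝕍, u (Sum.inr i0) = 0 → (j *ᵥ u) (Sum.inr i0) = 0 := by
      intro u hu
      have h1 := congrArg (fun A : 𝕄 => A *ᵥ u) hcomm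
      simp only [← Matrix.mulVec_mulVec] at h1
      rw [hmul u, hu, zero_smul, add_zero, hmul] at h1
      have h2 : (j *ᵥ u) (Sum.inr i0) • v = 0 := add_eq_left.1 h1.symm
      exact (smul_eq_zero.1 h2).resolve_right (by simp [hv])
    let φ : 𝕍 →ₗ[F] F := LinearMap.proj (Sum.inr i0)
    have h1 := LinearMap.finrank_range_add_finrank_ker φ
    rw [LinearMap.range_eq_top.2 (fun c => ⟨fun _ => c, rfl⟩), finrank_top, Module.finrank_self,
      Module.finrank_fintype_fun_eq_card, Fintype.card_sum, Fintype.card_fin] at h1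
    obtain ⟨k, hk⟩ := even_finrank ((Matrix.mulVecLin j).restrict (p := LinearMap.ker φ) (q := LinearMap.ker φ)
      (fun u hu => LinearMap.mem_ker.2 (hjv u (LinearMap.mem_ker.1 hu)))) hν (fun z => Subtype.ext (by
        show j *ᵥ (j *ᵥ (z : 𝕍)) = ν • (z : 𝕍)
        rw [Matrix.mulVec_mulVec, hsq, Matrix.smul_mulVec, Matrix.one_mulVec]))
    omega

omit [Fintype F] in
/-- Build an avoiding element from an abstract symplectic space. -/
theorem avoids_of_model {r : ℕ} {V₀ : Type*} [AddCommGroup V₀] [Module F V₀] [FiniteDimensional F V₀]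
    (hdim : Module.finrank F V₀ = 2 * d) (B : LinearMap.BilinForm F V₀) (hA : B.IsAlt) (hB : B.SeparatingLeft)
    (T : V₀ →ₗ[F] V₀) (hT : ∀ u v, B (T u) (T v) = B u v) (hTr : ∀ u, (T ^ r) u = u) (hns : ∀ z : F, ∃ u, T u ≠ z • u)
    (havoid : ∀ (j : V₀ →ₗ[F] V₀) (ν : F), (∀ u v, B (j u) v = - B u (j v)) → ¬ IsSquare ν →
      (∀ u, j (j u) = ν • u) → ∃ u, j (T u) ≠ T (j u)) :
    ∃ x : GL (Fin d ⊕ Fin d) F, Avoids r x := by
  classical
  obtain ⟨g, hg⟩ := Forms.exists_symp_coord hdim B hA hB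
  let S : 𝕍 →ₗ[F] 𝕍 := (g : V₀ →ₗ[F] _) ∘ₗ T ∘ₗ (g.symm : 𝕍 →ₗ[F] V₀)
  have hS : ∀ v, LinearMap.toMatrix' S *ᵥ v = g (T (g.symm v)) := fun v => LinearMap.toMatrix'_mulVec S v
  have hpow : ∀ (k : ℕ) v, (LinearMap.toMatrix' S) ^ k *ᵥ v = g ((T ^ k) (g.symm v)) := by
    intro k
    induction k with
    | zero => intro v; simp
    | succ k ih =>
      intro v
      rw [pow_succ', ← Matrix.mulVec_mulVec, ih, hS, LinearEquiv.symm_apply_apply, pow_succ', Module.End.mul_apply]
  have hform : ∀ u v, 𝕗 (LinearMap.toMatrix' S *ᵥ u) (LinearMap.toMatrix' S *ᵥ v) = 𝕗 u v := fun u v => by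
    rw [hS, hS, hg, hT, ← hg, LinearEquiv.apply_symm_apply, LinearEquiv.apply_symm_apply]
  have hdet : (LinearMap.toMatrix' S).det ≠ 0 := by
    intro h0
    obtain ⟨u, hu, hu0⟩ := Matrix.exists_mulVec_eq_zero_iff.2 h0
    obtain ⟨y, hy⟩ := SpGeom.exists_form_ne_zero hu
    rw [← hform, hu0, SpGeom.form_zero_left] at hy
    exact hy rfl
  refine ⟨GeneralLinearGroup.mkOfDetNeZero _ hdet, GeoSp.mem_spGL.2 hform, ?_, ?_, ?_⟩
  · refine Matrix.ext_iff_mulVec.2 fun v => ?_
    show LinearMap.toMatrix' S ^ r *ᵥ v = _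
    rw [hpow, hTr, LinearEquiv.apply_symm_apply, Matrix.one_mulVec]
  · intro z hz
    obtain ⟨u, hu⟩ := hns z
    refine hu (g.injective ?_)
    have := congrArg (fun A : 𝕄 => A *ᵥ g u) hz
    simp only [Matrix.smul_mulVec, Matrix.one_mulVec] at this
    rw [map_smul, ← this]
    show _ = LinearMap.toMatrix' S *ᵥ g u
    rw [hS, LinearEquiv.symm_apply_apply]
  · intro j ν hj hν hsq hcomm
    obtain ⟨u, hu⟩ := havoid ((g.symm : 𝕍 →ₗ[F] V₀) ∘ₗ Matrix.mulVecLin j ∘ₗ (g : V₀ →ₗ[F] 𝕍)) ν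
      (fun u v => by
        rw [← hg, ← hg]
        simp only [LinearMap.comp_apply, LinearEquiv.coe_coe, Matrix.mulVecLin_apply,
          LinearEquiv.apply_symm_apply]
        exact hj _ _) hν
      (fun u => by
        simp only [LinearMap.comp_apply, LinearEquiv.coe_coe, Matrix.mulVecLin_apply,
          LinearEquiv.apply_symm_apply, Matrix.mulVec_mulVec, hsq, Matrix.smul_mulVec, Matrix.one_mulVec,
          map_smul, LinearEquiv.symm_apply_apply])
    refine hu ?_
    simp only [LinearMap.comp_apply, LinearEquiv.coe_coe, Matrix.mulVecLin_apply]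
    refine g.injective ?_
    have := congrArg (fun A : 𝕄 => A *ᵥ g u) hcomm
    simp only [← Matrix.mulVec_mulVec] at this
    have hS' : ∀ v, (GeneralLinearGroup.mkOfDetNeZero _ hdet : 𝕄) *ᵥ v = g (T (g.symm v)) := hS
    rw [hS', hS', LinearEquiv.symm_apply_apply] at this
    rw [LinearEquiv.apply_symm_apply, this]

section Models

variable {L : Type*} [Field L] [Algebra F L] [FiniteDimensional F L]

omit [Fintype F] in
theorem trace_nondeg [Algebra.IsSeparable F L] {z : L} (h : ∀ c : L, Algebra.trace F L (z * c) = 0) : z = 0 :=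
  (traceForm_nondegenerate F L).1 z h

omit [Fintype F] in
theorem fix_eq_zero {ζ : L} (hζ : ζ ≠ 1) {M : Type*} [AddCommGroup M] [Module F M] (γ : L →ₗ[F] M)
    (h : ∀ z, γ (ζ * z) = γ z) : γ = 0 := by
  refine LinearMap.ext fun z => ?_
  have h1 : γ ((ζ - 1) * (z / (ζ - 1))) = 0 := by rw [sub_mul, one_mul, map_sub, h, sub_self]
  rwa [mul_div_cancel₀ _ (sub_ne_zero.2 hζ)] at h1

omit [Fintype F] in
theorem intertwine {ζ η : L} (β : L →ₗ[F] L) (h : ∀ z, β (ζ * z) = η * β z) (P : Polynomial F) :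
    ∀ z, β (Polynomial.aeval ζ P * z) = Polynomial.aeval η P * β z := by
  induction P using Polynomial.induction_on' with
  | add a b ha hb => intro z; rw [map_add, map_add, add_mul, map_add, ha, hb, add_mul]
  | monomial n a =>
    have hn : ∀ (n : ℕ) z, β (ζ ^ n * z) = η ^ n * β z := by
      intro n
      induction n with
      | zero => intro z; simp
      | succ n ih => intro z; rw [pow_succ, mul_assoc, ih, h, pow_succ, mul_assoc]
    intro z
    rw [Polynomial.aeval_monomial, Polynomial.aeval_monomial, ← Algebra.smul_def, ← Algebra.smul_def,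
      smul_mul_assoc, map_smul, hn, smul_mul_assoc]

theorem odd_avoids {r e : ℕ} (hr : r.Prime) (hr2 : r ≠ 2) (hfe : Module.finrank F L = e) (he : Odd e)
    (hed : e ≤ d) {ζ : L} (hζ : ζ ^ r = 1) (hζ1 : ζ ≠ 1) : ∃ x : GL (Fin d ⊕ Fin d) F, Avoids r x := by
  classical
  haveI : Finite L := Module.finite_of_finite F
  have hζ0 : ζ ≠ 0 := fun h => by rw [h, zero_pow hr.ne_zero] at hζ; exact zero_ne_one hζ
  let B₁ : LinearMap.BilinForm F ((L × L) × (Fin (d - e) ⊕ Fin (d - e) → F)) := LinearMap.mk₂ F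
    (fun a b => Algebra.trace F L (a.1.2 * b.1.1 - a.1.1 * b.1.2) + Cfsg.sympForm (d - e) F a.2 b.2)
    (fun a a' b => by
      simp only [Prod.fst_add, Prod.snd_add, SpGeom.form_add_left, add_mul, map_add, map_sub]; ring)
    (fun c a b => by
      simp only [Prod.smul_fst, Prod.smul_snd, SpGeom.form_smul_left, smul_mul_assoc, ← smul_sub, map_smul,
        smul_eq_mul]; ring)
    (fun a b b' => by
      simp only [Prod.fst_add, Prod.snd_add, SpGeom.form_add_right, mul_add, map_add, map_sub]; ring)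
    (fun c a b => by
      simp only [Prod.smul_fst, Prod.smul_snd, SpGeom.form_smul_right, mul_smul_comm, ← smul_sub, map_smul,
        smul_eq_mul]; ring)
  have hB₁ : ∀ a b, B₁ a b = Algebra.trace F L (a.1.2 * b.1.1 - a.1.1 * b.1.2) + Cfsg.sympForm (d - e) F a.2 b.2 :=
    fun a b => rfl
  let T : ((L × L) × (Fin (d - e) ⊕ Fin (d - e) → F)) →ₗ[F] ((L × L) × (Fin (d - e) ⊕ Fin (d - e) → F)) :=
    ((LinearMap.mulLeft F ζ).prodMap (LinearMap.mulLeft F ζ⁻¹)).prodMap LinearMap.id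
  have hTa : ∀ a, T a = ((ζ * a.1.1, ζ⁻¹ * a.1.2), a.2) := fun a => rfl
  have hTpow : ∀ (k : ℕ) a, (T ^ k) a = ((ζ ^ k * a.1.1, ζ⁻¹ ^ k * a.1.2), a.2) := by
    intro k
    induction k with
    | zero => intro a; simp
    | succ k ih => intro a; rw [pow_succ', Module.End.mul_apply, ih, hTa]; simp [pow_succ', mul_assoc]
  refine avoids_of_model ?_ B₁ (fun a => ?_) (fun a ha => ?_) T (fun u v => ?_) (fun u => ?_) (fun z => ?_) ?_
  · rw [Module.finrank_prod, Module.finrank_prod, Module.finrank_fintype_fun_eq_card, Fintype.card_sum,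
      Fintype.card_fin, hfe]
    omega
  · show B₁ a a = 0
    rw [hB₁, SpGeom.form_self, mul_comm a.1.2, sub_self, map_zero, add_zero]
  · have h1 : a.1.2 = 0 := trace_nondeg (F := F) fun c => by
      have := ha ((c, 0), 0)
      rwa [hB₁, mul_zero, sub_zero, SpGeom.form_zero_right, add_zero] at this
    have h2 : a.1.1 = 0 := trace_nondeg (F := F) fun c => by
      have := ha ((0, c), 0)
      rwa [hB₁, mul_zero, zero_sub, map_neg, SpGeom.form_zero_right, add_zero, neg_eq_zero] at this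
    have h3 : a.2 = 0 := by
      by_contra h
      obtain ⟨y, hy⟩ := SpGeom.exists_form_ne_zero h
      have := ha ((0, 0), y)
      rw [hB₁, mul_zero, mul_zero, sub_zero, map_zero, zero_add] at this
      exact hy this
    exact Prod.ext (Prod.ext h2 h1) h3
  · rw [hB₁, hB₁, hTa, hTa]
    congr 2
    field_simp
  · rw [hTpow, hζ, inv_pow, hζ, inv_one, one_mul, one_mul]
  · by_contra hcon
    push Not at hcon
    have h := hcon ((1, 1), 0)
    rw [hTa] at h
    simp only [Prod.smul_mk, Prod.mk.injEq, mul_one] at h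
    have h2 : ζ * ζ = 1 := by
      have : ζ = ζ⁻¹ := h.1.1.trans h.1.2.symm
      conv_lhs => arg 2; rw [this]
      rw [mul_inv_cancel₀ hζ0]
    exact hζ1 (by
      obtain ⟨k, hk⟩ := hr.odd_of_ne_two hr2
      rwa [hk, pow_succ, pow_mul, sq, h2, one_pow, one_mul] at hζ)
  · intro j ν _ hν hsq
    by_contra hcon
    push Not at hcon
    let ι₁ : L →ₗ[F] ((L × L) × (Fin (d - e) ⊕ Fin (d - e) → F)) :=
      (LinearMap.inl F (L × L) _).comp (LinearMap.inl F L L)
    let γ : L →ₗ[F] (Fin (d - e) ⊕ Fin (d - e) → F) := (LinearMap.snd F (L × L) _) ∘ₗ j ∘ₗ ι₁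
    let β : L →ₗ[F] L := (LinearMap.snd F L L) ∘ₗ (LinearMap.fst F (L × L) _) ∘ₗ j ∘ₗ ι₁
    let α : L →ₗ[F] L := (LinearMap.fst F L L) ∘ₗ (LinearMap.fst F (L × L) _) ∘ₗ j ∘ₗ ι₁
    have hι : ∀ z, ι₁ (ζ * z) = T (ι₁ z) := fun z => by simp [ι₁, hTa]
    have hγ : γ = 0 := fix_eq_zero hζ1 γ fun z => by
      show (j (ι₁ (ζ * z))).2 = (j (ι₁ z)).2
      rw [hι, hcon]
      rfl
    have hβh : ∀ z, β (ζ * z) = ζ⁻¹ * β z := fun z => by
      show (j (ι₁ (ζ * z))).1.2 = ζ⁻¹ * (j (ι₁ z)).1.2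
      rw [hι, hcon]
      rfl
    have hβ : β = 0 := by
      refine LinearMap.ext fun z => ?_
      have h1 := intertwine β hβh (minpoly F ζ) z
      rw [minpoly.aeval, zero_mul, map_zero] at h1
      rcases mul_eq_zero.1 h1.symm with h | h
      · exfalso
        have hconj : IsConjRoot F ζ ζ⁻¹ :=
          isConjRoot_of_aeval_eq_zero (Algebra.IsIntegral.isIntegral ζ) h
        obtain ⟨σ, hσ⟩ := isConjRoot_iff_exists_algEquiv.1 hconj
        have hσ1 : ∀ (τ : L ≃ₐ[F] L), τ ζ⁻¹ = ζ → ∀ k : ℕ, (τ ^ k) ζ⁻¹ = if Even k then ζ⁻¹ else ζ := by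
          intro τ hτ k
          induction k with
          | zero => simp
          | succ k ih =>
            rw [pow_succ', AlgEquiv.mul_apply, ih]
            by_cases hk : Even k
            · rw [if_pos hk, if_neg (by simpa [Nat.even_add_one] using hk), hτ]
            · rw [if_neg hk, if_pos (by simpa [Nat.even_add_one] using hk)]
              rw [← inv_inv ζ, map_inv₀, hτ, inv_inv]
        haveI : IsGalois F L := inferInstance
        have hcard : Nat.card (L ≃ₐ[F] L) = e := by rw [IsGalois.card_aut_eq_finrank, hfe]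
        have h2 : (σ ^ e) ζ⁻¹ = ζ⁻¹ := by rw [← hcard, pow_card_eq_one', AlgEquiv.one_apply]
        rw [hσ1 σ hσ e, if_neg (Nat.not_even_iff_odd.2 he)] at h2
        have h3 : ζ * ζ = 1 := by
          nth_rewrite 2 [h2]
          rw [mul_inv_cancel₀ hζ0]
        exact hζ1 (by
          obtain ⟨k, hk⟩ := hr.odd_of_ne_two hr2
          rwa [hk, pow_succ, pow_mul, sq, h3, one_pow, one_mul] at hζ)
      · exact h
    have hj : ∀ z, j (ι₁ z) = ι₁ (α z) := fun z => by
      refine Prod.ext (Prod.ext rfl ?_) ?_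
      · exact (LinearMap.congr_fun hβ z)
      · exact (LinearMap.congr_fun hγ z)
    obtain ⟨k, hk⟩ := even_finrank α hν (fun z => by
      have := hsq (ι₁ z)
      rw [hj, hj] at this
      exact congrArg (fun a => a.1.1) this)
    obtain ⟨k', hk'⟩ := he
    omega

theorem half_avoids {r h : ℕ} (h2 : (2 : F) ≠ 0) (hfe : Module.finrank F L = 2 * h) (hh : Even h) (hhd : h ≤ d)
    (τ : L ≃ₐ[F] L) (hτ : ∀ z, τ z = z ^ (Fintype.card F ^ h)) {ζ : L} (hζ : ζ ^ r = 1) (hζ1 : ζ ≠ 1)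
    (hτζ : τ ζ = ζ⁻¹) (hgen : ∀ z : L, ∃ P : Polynomial F, Polynomial.aeval ζ P = z)
    (hnz : ∀ c : F, algebraMap F L c ≠ ζ) : ∃ x : GL (Fin d ⊕ Fin d) F, Avoids r x := by
  classical
  have hζ0 : ζ ≠ 0 := fun h0 => by
    rw [h0, _root_.inv_zero] at hτζ
    exact hnz 0 (by rw [map_zero, h0])
  obtain ⟨b₀, hb₀⟩ : ∃ b, τ b ≠ b := ⟨ζ, fun h1 => by
    rw [hτζ] at h1
    have h3 : ζ * ζ = 1 := by nth_rewrite 1 [← h1]; rw [inv_mul_cancel₀ hζ0]
    have h4 : (ζ - 1) * (ζ + 1) = 0 := by linear_combination h3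
    rcases mul_eq_zero.1 h4 with h5 | h5
    · exact hζ1 (sub_eq_zero.1 h5)
    · exact hnz (-1) (by rw [map_neg, map_one]; linear_combination -h5)⟩
  haveI : Finite L := Module.finite_of_finite F
  letI : Fintype L := Fintype.ofFinite L
  have hcardL : Fintype.card L = (Fintype.card F ^ h) ^ 2 := by
    rw [Module.card_eq_pow_finrank (K := F), hfe, ← pow_mul, mul_comm]
  have hττ : ∀ z, τ (τ z) = z := fun z => by
    rw [hτ, hτ, ← pow_mul, ← sq, ← hcardL, FiniteField.pow_card]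
  set δ := b₀ - τ b₀ with hδdef
  have hδ : δ ≠ 0 := sub_ne_zero.2 (Ne.symm hb₀)
  have hτδ : τ δ = -δ := by rw [hδdef, map_sub, hττ]; ring
  have htr : ∀ z, Algebra.trace F L (τ z) = Algebra.trace F L z := fun z => Algebra.trace_eq_of_algEquiv τ z
  let B₁ : LinearMap.BilinForm F (L × (Fin (d - h) ⊕ Fin (d - h) → F)) := LinearMap.mk₂ F
    (fun a b => Algebra.trace F L (δ * a.1 * τ b.1) + Cfsg.sympForm (d - h) F a.2 b.2)
    (fun a a' b => by
      simp only [Prod.fst_add, Prod.snd_add, SpGeom.form_add_left, mul_add, add_mul, map_add]; ring)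
    (fun c a b => by
      simp only [Prod.smul_fst, Prod.smul_snd, SpGeom.form_smul_left, mul_smul_comm, smul_mul_assoc, map_smul,
        smul_eq_mul]; ring)
    (fun a b b' => by
      simp only [Prod.fst_add, Prod.snd_add, SpGeom.form_add_right, map_add, mul_add]; ring)
    (fun c a b => by
      simp only [Prod.smul_fst, Prod.smul_snd, SpGeom.form_smul_right, map_smul, mul_smul_comm, smul_eq_mul]; ring)
  have hB₁ : ∀ a b, B₁ a b = Algebra.trace F L (δ * a.1 * τ b.1) + Cfsg.sympForm (d - h) F a.2 b.2 := fun a b => rfl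
  let T : (L × (Fin (d - h) ⊕ Fin (d - h) → F)) →ₗ[F] (L × (Fin (d - h) ⊕ Fin (d - h) → F)) :=
    (LinearMap.mulLeft F ζ).prodMap LinearMap.id
  have hTa : ∀ a, T a = (ζ * a.1, a.2) := fun a => rfl
  have hTpow : ∀ (k : ℕ) a, (T ^ k) a = (ζ ^ k * a.1, a.2) := by
    intro k
    induction k with
    | zero => intro a; simp
    | succ k ih => intro a; rw [pow_succ', Module.End.mul_apply, ih, hTa]; simp [pow_succ', mul_assoc]
  refine avoids_of_model ?_ B₁ (fun a => ?_) (fun a ha => ?_) T (fun u v => ?_) (fun u => ?_) (fun z => ?_) ?_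
  · rw [Module.finrank_prod, Module.finrank_fintype_fun_eq_card, Fintype.card_sum, Fintype.card_fin, hfe]
    omega
  · show B₁ a a = 0
    rw [hB₁, SpGeom.form_self, add_zero]
    have h1 := htr (δ * a.1 * τ a.1)
    rw [map_mul τ, map_mul τ, hτδ, hττ, neg_mul, neg_mul, mul_right_comm, map_neg] at h1
    have h3 : (2 : F) * Algebra.trace F L (δ * a.1 * τ a.1) = 0 := by linear_combination -h1
    exact (mul_eq_zero.1 h3).resolve_left h2
  · have h1 : a.1 = 0 := trace_nondeg (F := F) fun c => by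
      have := ha (τ (c / δ), 0)
      rw [hB₁, hττ, SpGeom.form_zero_right, add_zero, mul_right_comm, mul_div_cancel₀ _ hδ, mul_comm] at this
      exact this
    have h3 : a.2 = 0 := by
      by_contra h
      obtain ⟨y, hy⟩ := SpGeom.exists_form_ne_zero h
      have := ha (0, y)
      rw [hB₁, map_zero, mul_zero, map_zero, zero_add] at this
      exact hy this
    exact Prod.ext h1 h3
  · rw [hB₁, hB₁, hTa, hTa, map_mul τ, hτζ]
    congr 2
    field_simp
  · rw [hTpow, hζ, one_mul]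
  · by_contra hcon
    push Not at hcon
    have h1 := hcon (1, 0)
    rw [hTa] at h1
    simp only [Prod.smul_mk, Prod.mk.injEq, mul_one] at h1
    exact hnz z (by rw [Algebra.algebraMap_eq_smul_one, h1.1])
  · intro j ν hskew hν hsq
    by_contra hcon
    push Not at hcon
    let ι₁ : L →ₗ[F] (L × (Fin (d - h) ⊕ Fin (d - h) → F)) := LinearMap.inl F L _
    let α : L →ₗ[F] L := (LinearMap.fst F L _) ∘ₗ j ∘ₗ ι₁
    let γ : L →ₗ[F] (Fin (d - h) ⊕ Fin (d - h) → F) := (LinearMap.snd F L _) ∘ₗ j ∘ₗ ι₁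
    have hι : ∀ z, ι₁ (ζ * z) = T (ι₁ z) := fun z => by simp [ι₁, hTa]
    have hγ : γ = 0 := fix_eq_zero hζ1 γ fun z => by
      show (j (ι₁ (ζ * z))).2 = (j (ι₁ z)).2
      rw [hι, hcon]
      rfl
    have hαh : ∀ z, α (ζ * z) = ζ * α z := fun z => by
      show (j (ι₁ (ζ * z))).1 = ζ * (j (ι₁ z)).1
      rw [hι, hcon]
      rfl
    have hαz : ∀ z, α z = z * α 1 := fun z => by
      obtain ⟨P, rfl⟩ := hgen z
      simpa using intertwine α hαh P 1
    have hj : ∀ z, j (ι₁ z) = ι₁ (α z) := fun z => Prod.ext rfl (LinearMap.congr_fun hγ z)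
    have hsq1 : α 1 * α 1 = algebraMap F L ν := by
      have h1 := congrArg Prod.fst (hsq (ι₁ 1))
      rw [hj, hj] at h1
      have h3 : α (α 1) = ν • (1 : L) := h1
      rw [hαz (α 1), ← Algebra.algebraMap_eq_smul_one] at h3
      exact h3
    obtain ⟨k, hk⟩ := hh
    have hτα : τ (α 1) = α 1 := by
      obtain ⟨m, hm⟩ : ∃ m, Fintype.card F = 2 * m + 1 := by
        have := FiniteField.odd_card_of_char_ne_two (F := F) fun h0 => h2 (by
          have := ringChar.Nat.cast_ringChar (R := F)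
          rw [h0] at this
          exact_mod_cast this)
        exact ⟨Fintype.card F / 2, by omega⟩
      have hν0 : ν ≠ 0 := fun h0 => hν ⟨0, by rw [h0, mul_zero]⟩
      have hu : algebraMap F L ν ^ m * algebraMap F L ν ^ m = 1 := by
        rw [← map_pow, ← map_mul, ← pow_add, ← two_mul, show 2 * m = Fintype.card F - 1 by omega,
          FiniteField.pow_card_sub_one_eq_one ν hν0, map_one]
      have hq : (α 1) ^ Fintype.card F = algebraMap F L ν ^ m * α 1 := by
        rw [hm, pow_succ, pow_mul, sq, hsq1]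
      have hq2 : (α 1) ^ (Fintype.card F ^ 2) = α 1 := by
        rw [sq, pow_mul, hq, mul_pow, hq, ← map_pow, ← map_pow, ← pow_mul, mul_comm m, pow_mul, FiniteField.pow_card,
          map_pow, ← mul_assoc, hu, one_mul]
      rw [hτ, hk, ← two_mul, pow_mul]
      clear hk
      induction k with
      | zero => simp
      | succ k ih => rw [pow_succ, pow_mul, ih, hq2]
    have hzero : ∀ v : L, Algebra.trace F L (δ * α 1 * v) = 0 := by
      intro v
      have h1 := hskew (ι₁ 1) (ι₁ (τ v))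
      rw [hj, hj, hB₁, hB₁] at h1
      simp only [ι₁, LinearMap.inl_apply, SpGeom.form_zero_right, add_zero] at h1
      rw [hαz (τ v), map_mul τ, hττ, hτα, mul_one] at h1
      rw [show δ * (v * α 1) = δ * α 1 * v by ring] at h1
      have h3 : (2 : F) * Algebra.trace F L (δ * α 1 * v) = 0 := by linear_combination h1
      exact (mul_eq_zero.1 h3).resolve_left h2
    have := trace_nondeg (F := F) hzero
    rcases mul_eq_zero.1 this with h1 | h1
    · exact hδ h1
    · rw [h1, mul_zero] at hsq1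
      exact hν ⟨0, by rw [mul_zero]; exact (algebraMap F L).injective (by rw [← hsq1, map_zero])⟩

end Models

end CfsgLib.SpSkew
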